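import Cfsg.Agent.MaxSub.Overfield.Matrices

/-!
The normaliser of a skew quadratic overfield is maximal in the symplectic group of dimension at
least six: the search for singular vectors done with spanning arguments.
-/

set_option autoImplicit false

namespace Cfsg.Agent.GeoLow

open Matrix Module Cfsg Cfsg.Agent Cfsg.Agent.Forms Cfsg.Agent.ClassicalMax Cfsg.Agent.GeoClasses
open Cfsg.Agent.MaxSub.Overfield
open scoped MatrixGroups Matrix

variable {F : Type*} [Field F] {m : ℕ}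

local notation "V" => (Fin m ⊕ Fin m → F)
local notation "β" => sympBil m F
local notation "mat[" g "]" =>
  ((g : GL (Fin m ⊕ Fin m) F) : Matrix (Fin m ⊕ Fin m) (Fin m ⊕ Fin m) F)

lemma finrank_pair_le (x y : V) : finrank F (Submodule.span F ({x, y} : Set V)) ≤ 2 := by
  classical
  have h0 := finrank_span_finset_le_card (R := F) ({x, y} : Finset V)
  have := Finset.card_le_two (a := x) (b := y)
  unfold Set.finrank at h0
  rw [Finset.coe_pair] at h0
  omega

lemma two_le_of_indep {L : Submodule F V} {x y : V} (hx : x ∈ L) (hy : y ∈ L)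
    (h : ∀ s t : F, s • x + t • y = 0 → s = 0 ∧ t = 0) : 2 ≤ finrank F L := by
  have hli : LinearIndependent F ![x, y] := LinearIndependent.pair_iff.2 h
  have h1 := finrank_span_eq_card hli
  rw [Fintype.card_fin] at h1
  have h2 : Submodule.span F (Set.range ![x, y]) ≤ L := by
    rw [Submodule.span_le]
    rintro z ⟨i, rfl⟩
    fin_cases i <;> simp [hx, hy]
  have := Submodule.finrank_mono h2
  omega

/-- A subspace is not the union of three proper subspaces in odd characteristic. -/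
lemma exists_avoid_three (h2 : (2 : F) ≠ 0) (W A B C : Submodule F V) (hA : ¬ W ≤ A)
    (hB : ¬ W ≤ B) (hC : ¬ W ≤ C) : ∃ x ∈ W, x ∉ A ∧ x ∉ B ∧ x ∉ C := by
  obtain ⟨a, haW, ha⟩ := SetLike.not_le_iff_exists.1 hA
  obtain ⟨b, hbW, hb⟩ := SetLike.not_le_iff_exists.1 hB
  obtain ⟨p, hpW, hpA, hpB⟩ : ∃ p ∈ W, p ∉ A ∧ p ∉ B := by
    by_cases h1 : a ∈ B
    · by_cases h2 : b ∈ A
      · exact ⟨a + b, W.add_mem haW hbW, fun h => ha (by simpa using A.sub_mem h h2),
          fun h => hb (by simpa using B.sub_mem h h1)⟩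
      · exact ⟨b, hbW, h2, hb⟩
    · exact ⟨a, haW, ha, h1⟩
  by_cases hpC : p ∈ C
  swap
  · exact ⟨p, hpW, hpA, hpB, hpC⟩
  obtain ⟨c, hcW, hc⟩ := SetLike.not_le_iff_exists.1 hC
  by_contra hcon
  push Not at hcon
  -- among `c`, `c + p`, `c - p` two lie in the same of `A`, `B`
  have hk : ∀ k : F, c + k • p ∈ A ∨ c + k • p ∈ B := fun k => by
    by_cases h1 : c + k • p ∈ A
    · exact Or.inl h1
    · refine Or.inr (by_contra fun h2 => hc ?_)
      simpa using C.sub_mem (hcon _ (W.add_mem hcW (W.smul_mem k hpW)) h1 h2) (C.smul_mem k hpC)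
  have hsame : ∀ (S : Submodule F V) (k l : F), p ∉ S → c + k • p ∈ S → c + l • p ∈ S → k = l := by
    intro S k l hS h1 h2
    by_contra hne
    have := S.smul_mem (k - l)⁻¹ (S.sub_mem h1 h2)
    rw [show c + k • p - (c + l • p) = (k - l) • p by module, smul_smul,
      inv_mul_cancel₀ (sub_ne_zero.2 hne), one_smul] at this
    exact hS this
  have n1 : (0 : F) ≠ 1 := zero_ne_one
  have n2 : (0 : F) ≠ -1 := (neg_ne_zero.2 one_ne_zero).symm
  have n3 : (1 : F) ≠ -1 := fun h => h2 (by linear_combination h)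
  rcases hk 0 with a0 | b0 <;> rcases hk 1 with a1 | b1 <;> rcases hk (-1) with a2 | b2
  all_goals first
    | exact n1 (hsame A 0 1 hpA (by assumption) (by assumption))
    | exact n1 (hsame B 0 1 hpB (by assumption) (by assumption))
    | exact n2 (hsame A 0 (-1) hpA (by assumption) (by assumption))
    | exact n2 (hsame B 0 (-1) hpB (by assumption) (by assumption))
    | exact n3 (hsame A 1 (-1) hpA (by assumption) (by assumption))
    | exact n3 (hsame B 1 (-1) hpB (by assumption) (by assumption))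

namespace Str3

variable {Jo : (Fin m ⊕ Fin m → F) →ₗ[F] (Fin m ⊕ Fin m → F)} {ν : F} (hJ : Str Jo ν)
include hJ

lemma indep {x : Fin m ⊕ Fin m → F} (hx : x ≠ 0) {p q : F} (h : p • x + q • Jo x = 0) :
    p = 0 ∧ q = 0 := by
  by_contra hne
  have hN := hJ.norm_ne (a := p) (b := q) (by tauto)
  have h3 := congrArg Jo h
  rw [map_add, map_smul, map_smul, hJ.sq, map_zero] at h3
  have h4 : (p * p - ν * (q * q)) • x = 0 := by
    linear_combination (norm := module) p • h - q • h3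
  exact hx ((smul_eq_zero.1 h4).resolve_left hN)

omit hJ in
lemma indep_of_not_mem {x z : Fin m ⊕ Fin m → F} (_hJ : Str Jo ν)
    (h : z ∉ Submodule.span F ({x, Jo x} : Set (Fin m ⊕ Fin m → F))) (p q : F) :
    z ≠ p • x + q • Jo x := fun e => h (Submodule.mem_span_pair.2 ⟨p, q, e.symm⟩)

lemma exists_singular [Finite F] (hm : 2 ≤ m) : ∃ e, e ≠ 0 ∧ sympBil m F e (Jo e) = 0 := by
  obtain ⟨e, -, he0, heq⟩ := Forms.exists_singular_vector_of_three_le
    (LinearMap.BilinMap.toQuadraticMap ((β).compl₂ Jo)) (S := (⊤ : Submodule F V)) (by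
      rw [finrank_top]; simp; omega)
  exact ⟨e, he0, heq⟩

/-- Singular vectors with polar product outside a subspace span it. -/
lemma eq_top_of_singular {W : Submodule F V} {e : V} (he : e ∈ W) (hq : β e (Jo e) = 0)
    {d : V} (hd : d ∈ W) (hde : β d (Jo e) ≠ 0) {B : Submodule F V}
    (hB : ∀ x ∈ W, β x (Jo x) = 0 → x ∈ B) : W ≤ B := by
  have key : ∀ x ∈ W, β x (Jo e) ≠ 0 → x ∈ B := by
    intro x hx hxe
    obtain ⟨k, hk⟩ : ∃ k, k = -(β x (Jo x)) / (2 * β x (Jo e)) := ⟨_, rfl⟩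
    have h1 := hB (x + k • e) (W.add_mem hx (W.smul_mem k he)) (by
      rw [hJ.expand, hq, hk]
      have := hJ.two
      field_simp
      ring)
    have h2 := B.sub_mem h1 (B.smul_mem k (hB e he hq))
    rwa [add_sub_cancel_right] at h2
  intro x hx
  by_cases hxe : β x (Jo e) = 0
  · have h1 := key (x + d) (W.add_mem hx hd) (by
      rw [map_add, LinearMap.add_apply, hxe, zero_add]; exact hde)
    simpa using B.sub_mem h1 (key d hd hde)
  · exact key x hx hxe

/-- A singular vector outside two lines over the overfield. -/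
lemma exists_singular_off [Fintype F] (hm : 3 ≤ m) (x y : V) :
    ∃ z, β z (Jo z) = 0 ∧ z ∉ Submodule.span F ({x, Jo x} : Set V) ∧
      z ∉ Submodule.span F ({y, Jo y} : Set V) := by
  by_contra hcon
  push Not at hcon
  obtain ⟨e, he0, heq⟩ := Str3.exists_singular hJ (show 2 ≤ m by omega)
  obtain ⟨d, hd⟩ : ∃ d, β d (Jo e) ≠ 0 := by
    by_contra h
    push Not at h
    exact hJ.J_ne he0 (sympBil_nondegenerate.2 _ h)
  have h1 := Str3.eq_top_of_singular hJ (W := ⊤) trivial heq (d := d) trivial hd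
    (B := Submodule.span F ({x, Jo x} : Set V) ⊔ Submodule.span F ({y, Jo y} : Set V))
    (fun z _ hz => by
      by_cases hzx : z ∈ Submodule.span F ({x, Jo x} : Set V)
      · exact Submodule.mem_sup_left hzx
      · exact Submodule.mem_sup_right (hcon z hz hzx))
  have h2 := Submodule.finrank_mono h1
  rw [finrank_top] at h2
  have h3 := Submodule.finrank_add_le_finrank_add_finrank
    (Submodule.span F ({x, Jo x} : Set V)) (Submodule.span F ({y, Jo y} : Set V))
  have h4 := finrank_pair_le (F := F) x (Jo x)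
  have h5 := finrank_pair_le (F := F) y (Jo y)
  have hV : finrank F V = m + m := by simp
  omega

/-- A multiple over the overfield with a vanishing product. -/
lemma exists_multiple {z w x y : V} (hz : β z (Jo z) = 0)
    (hzx : z ∉ Submodule.span F ({x, Jo x} : Set V))
    (hzy : z ∉ Submodule.span F ({y, Jo y} : Set V)) :
    ∃ z₁, β w (Jo z₁) = 0 ∧ β z₁ (Jo z₁) = 0 ∧
      z₁ ∉ Submodule.span F ({x, Jo x} : Set V) ∧ z₁ ∉ Submodule.span F ({y, Jo y} : Set V) := by
  obtain ⟨p, q, hne, hpq⟩ : ∃ p q : F, (p ≠ 0 ∨ q ≠ 0) ∧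
      p * β w (Jo z) + q * (ν * β w z) = 0 := by
    by_cases h : β w (Jo z) = 0
    · exact ⟨1, 0, Or.inl one_ne_zero, by simp [h]⟩
    · exact ⟨-(ν * β w z), β w (Jo z), Or.inr h, by ring⟩
  have hN := hJ.norm_ne hne
  have hout : ∀ u : V, z ∉ Submodule.span F ({u, Jo u} : Set V) →
      p • z + q • Jo z ∉ Submodule.span F ({u, Jo u} : Set V) := by
    intro u hu hmem
    obtain ⟨s, t, hst⟩ := Submodule.mem_span_pair.1 hmem
    apply hu
    have h3 := congrArg Jo hst
    rw [map_add, map_add, map_smul, map_smul, map_smul, map_smul, hJ.sq, hJ.sq] at h3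
    have h4 : (p * p - ν * (q * q)) • z = (p * s - q * t * ν) • u + (p * t - q * s) • Jo u := by
      linear_combination (norm := module) q • h3 - p • hst
    have h5 := congrArg (fun v => (p * p - ν * (q * q))⁻¹ • v) h4
    simp only [smul_smul, inv_mul_cancel₀ hN, one_smul, smul_add] at h5
    exact Submodule.mem_span_pair.2 ⟨_, _, h5.symm⟩
  refine ⟨p • z + q • Jo z, ?_, ?_, hout x hzx, hout y hzy⟩
  · simp only [map_add, map_smul, hJ.sq, smul_eq_mul]
    linear_combination hpq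
  · simp [hJ.sq, hJ.J_J, hJ.J_left, hz, sympBil_isAlt.self_eq_zero]

/-- A singular vector with two prescribed non-zero products. -/
lemma exists_singular_two' [Fintype F] (hm : 3 ≤ m) {u y : V} (hu : u ≠ 0) (hy : y ≠ 0) :
    ∃ p, β p (Jo p) = 0 ∧ β p u ≠ 0 ∧ β p y ≠ 0 := by
  by_contra hcon
  push Not at hcon
  obtain ⟨e, he0, heq⟩ := Str3.exists_singular hJ (show 2 ≤ m by omega)
  obtain ⟨d, hd⟩ : ∃ d, β d (Jo e) ≠ 0 := by
    by_contra h
    push Not at h
    exact hJ.J_ne he0 (sympBil_nondegenerate.2 _ h)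
  have hne : ∀ w : V, w ≠ 0 → ∃ p, β p (Jo p) = 0 ∧ β p w ≠ 0 := by
    intro w hw
    by_contra h
    push Not at h
    have h1 := Str3.eq_top_of_singular hJ (W := ⊤) trivial heq (d := d) trivial hd
      (B := LinearMap.ker ((β).flip w)) (fun z _ hz => h z hz)
    exact hw (sympBil_nondegenerate.2 w fun s => h1 trivial)
  obtain ⟨p₁, hp₁, hp₁u⟩ := hne u hu
  obtain ⟨p₂, hp₂, hp₂y⟩ := hne y hy
  have h1y := hcon p₁ hp₁ hp₁u
  obtain ⟨X, hX⟩ : ∃ X, X = β p₁ (Jo p₂) := ⟨_, rfl⟩
  obtain ⟨Y, hY⟩ : ∃ Y, Y = β p₁ p₂ := ⟨_, rfl⟩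
  obtain ⟨A, hA⟩ : ∃ A, A = β p₂ y := ⟨_, rfl⟩
  obtain ⟨A', hA'⟩ : ∃ A', A' = β (Jo p₂) y := ⟨_, rfl⟩
  have hp₂u : β p₂ u = 0 := by_contra fun h => hp₂y (hcon p₂ hp₂ h)
  by_cases hXY : X = 0 ∧ Y = 0
  · have h3 := hcon (p₁ + (1 : F) • p₂)
      (by rw [hJ.expand, hp₁, hp₂, ← hX, hXY.1]; ring) (by simpa [hp₂u] using hp₁u)
    simp [h1y] at h3
    exact hp₂y h3
  -- rotated pairs
  have key : ∀ a b : F, a * β p₁ u + b * β (Jo p₁) u ≠ 0 →
      (a * ν * Y - b * ν * X) * A - (a * X - b * ν * Y) * A' ≠ 0 → False := by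
    intro a b h1 h2
    obtain ⟨r, hr⟩ : ∃ r, r = a • p₁ + b • Jo p₁ := ⟨_, rfl⟩
    obtain ⟨z, hz⟩ : ∃ z, z = (a * ν * Y - b * ν * X) • p₂ + -(a * X - b * ν * Y) • Jo p₂ :=
      ⟨_, rfl⟩
    have hrq : β r (Jo r) = 0 := by
      simp [hr, hJ.sq, hJ.J_J, hJ.J_left, hp₁, sympBil_isAlt.self_eq_zero]
    have hzq : β z (Jo z) = 0 := by
      simp [hz, hJ.sq, hJ.J_J, hJ.J_left, hp₂, sympBil_isAlt.self_eq_zero]
    have hrz : β r (Jo z) = 0 := by
      simp only [hr, hz, map_add, map_smul, hJ.sq, LinearMap.add_apply, LinearMap.smul_apply,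
        smul_eq_mul, hJ.J_J, hJ.skew p₁ p₂, hX, hY]
      ring
    have hru : β r u ≠ 0 := by simpa [hr] using h1
    have hzy : β z y ≠ 0 := by
      intro h
      apply h2
      rw [hz] at h
      simp only [map_add, map_smul, LinearMap.add_apply, LinearMap.smul_apply, smul_eq_mul, ← hA,
        ← hA'] at h
      linear_combination h
    have hry := hcon r hrq hru
    have hzu : β z u = 0 := by_contra fun h => hzy (hcon z hzq h)
    have h3 := hcon (r + (1 : F) • z) (by rw [hJ.expand, hrq, hzq, hrz]; ring)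
      (by simpa [hzu] using hru)
    simp [hry] at h3
    exact hzy h3
  have hψ : ¬ (ν * Y * A - X * A' = 0 ∧ ν * Y * A' - ν * X * A = 0) := by
    rintro ⟨e1, e2⟩
    have hN : (X * X - ν * (Y * Y)) * A = 0 := by
      refine mul_left_cancel₀ hJ.nu_ne ?_
      linear_combination -(ν * Y) * e1 - X * e2
    exact hp₂y (hA ▸ (mul_eq_zero.1 hN).resolve_left (hJ.norm_ne (by tauto)))
  by_cases h10 : β p₁ u ≠ 0 ∧ ν * Y * A - X * A' ≠ 0
  · exact key 1 0 (by simpa using h10.1) (by simpa [sub_eq_zero] using h10.2)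
  have hψ1 : ν * Y * A - X * A' = 0 := not_not.1 fun h => h10 ⟨hp₁u, h⟩
  have hψ2 : ν * Y * A' - ν * X * A ≠ 0 := fun h => hψ ⟨hψ1, h⟩
  by_cases hP : β p₁ u + β (Jo p₁) u = 0
  · exact key 1 (-1) (by
      intro h
      have : (2 : F) * β p₁ u = 0 := by linear_combination h + hP
      exact hp₁u ((mul_eq_zero.1 this).resolve_left hJ.two)) (by
      intro h; exact hψ2 (by linear_combination hψ1 - h))
  · exact key 1 1 (by simpa using hP) (by
      intro h; exact hψ2 (by linear_combination h - hψ1))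

/-- Singular vectors orthogonal to a pair avoid two given subspaces. -/
lemma exists_singular_avoid [Fintype F] (hm : 3 ≤ m) {L : Submodule F V} (hL : finrank F L ≤ 2)
    (hr : 4 ≤ m ∨ ∃ p ∈ L, ∃ q ∈ L, β (Jo p) q ≠ 0) {A B : Submodule F V}
    (hA : finrank F A ≤ 2) (hB : finrank F B + 4 ≤ m + m) :
    ∃ e, (∀ x ∈ L, β x e = 0) ∧ e ∉ A ∧ e ∉ B ∧ β e (Jo e) = 0 := by
  by_contra hcon
  push Not at hcon
  obtain ⟨W, hW⟩ : ∃ W, W = LinearMap.BilinForm.orthogonal β L := ⟨_, rfl⟩
  have hmem : ∀ x ∈ W, β x (Jo x) = 0 → x ∈ A ∨ x ∈ B := by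
    intro x hx hxq
    by_cases hxA : x ∈ A
    · exact Or.inl hxA
    · refine Or.inr (by_contra fun h => hcon x ?_ hxA h hxq)
      intro l hl
      rw [hW] at hx
      exact hx l hl
  have hWo : LinearMap.BilinForm.orthogonal β W = L := by
    rw [hW, LinearMap.BilinForm.orthogonal_orthogonal sympBil_nondegenerate spB_isRefl]
  have hV : finrank F V = m + m := by simp
  have hWdim : m + m ≤ finrank F W + 2 := by
    have : finrank F W = finrank F V - finrank F L := by
      rw [hW]; exact LinearMap.BilinForm.finrank_orthogonal sympBil_nondegenerate _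
    omega
  -- the radical is at most a line
  obtain ⟨Rad, hRad⟩ : ∃ R, R = W ⊓ L.comap Jo := ⟨_, rfl⟩
  have hradmem : ∀ x ∈ W, (∀ y ∈ W, β y (Jo x) = 0) → x ∈ Rad := fun x hx h => by
    rw [hRad]
    exact ⟨hx, hWo.le h⟩
  have hrad : finrank F Rad + 3 ≤ finrank F W := by
    by_contra hlt
    have hinj : Function.Injective Jo := fun x y h => by
      have := congrArg Jo h
      rw [hJ.sq, hJ.sq] at this
      exact smul_right_injective _ hJ.nu_ne this
    have hle : Rad.map Jo ≤ L := by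
      rw [hRad]
      exact Submodule.map_le_iff_le_comap.2 inf_le_right
    have hcardR : finrank F Rad ≤ 2 := by
      rw [(Submodule.equivMapOfInjective Jo hinj Rad).finrank_eq]
      exact (Submodule.finrank_mono hle).trans hL
    obtain ⟨p, hp, q, hq, hpq⟩ := hr.resolve_left (fun h4 => by omega)
    have heq : Rad.map Jo = L := Submodule.eq_of_le_of_finrank_le hle (by
      rw [← (Submodule.equivMapOfInjective Jo hinj Rad).finrank_eq]; omega)
    obtain ⟨x, hx, rfl⟩ := heq.ge hp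
    rw [hRad, hW] at hx
    have h1 : β q x = 0 := hx.1 q hq
    apply hpq
    rw [hJ.sq, map_smul, LinearMap.smul_apply, spB_swap q x, h1, neg_zero, smul_zero]
  -- a singular vector outside the radical
  obtain ⟨C, hC⟩ := Rad.exists_isCompl
  have hCW : 3 ≤ finrank F ↥(W ⊓ C) := by
    have h1 := Submodule.finrank_sup_add_finrank_inf_eq W C
    have h2 := Submodule.finrank_le (W ⊔ C)
    have h3 := Submodule.finrank_add_eq_of_isCompl hC
    omega
  obtain ⟨e, heC, he0, heq⟩ := Forms.exists_singular_vector_of_three_le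
    (LinearMap.BilinMap.toQuadraticMap ((β).compl₂ Jo)) (S := W ⊓ C) hCW
  replace heq : β e (Jo e) = 0 := heq
  have hout : ∀ x ∈ W, x ∉ Rad → ∃ d ∈ W, β d (Jo x) ≠ 0 := fun x hx hxR => by
    by_contra h
    push Not at h
    exact hxR (hradmem x hx h)
  have heR : e ∉ Rad := fun h => he0 (Submodule.disjoint_def.1 hC.disjoint e h heC.2)
  obtain ⟨d, hd, hde⟩ := hout e heC.1 heR
  have hspan : ∀ S : Submodule F V, (∀ x ∈ W, β x (Jo x) = 0 → x ∈ S) → W ≤ S := fun S hS =>
    Str3.eq_top_of_singular hJ heC.1 heq hd hde hS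
  -- a singular vector outside `B` and the radical
  obtain ⟨u, huW, hu, huB, huR⟩ : ∃ u ∈ W, β u (Jo u) = 0 ∧ u ∉ B ∧ u ∉ Rad := by
    by_cases heB : e ∈ B
    swap
    · exact ⟨e, heC.1, heq, heB, heR⟩
    obtain ⟨u, huW, hu, huB⟩ : ∃ u ∈ W, β u (Jo u) = 0 ∧ u ∉ B := by
      by_contra h
      push Not at h
      have := Submodule.finrank_mono (hspan B h)
      omega
    by_cases huR : u ∈ Rad
    swap
    · exact ⟨u, huW, hu, huB, huR⟩
    refine ⟨e + u, W.add_mem heC.1 huW, ?_, fun h => huB ?_, fun h => heR ?_⟩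
    · have h1 : β e (Jo u) = 0 := by
        rw [hRad, hW] at huR
        have h2 := heC.1
        rw [hW] at h2
        rw [spB_swap (Jo u) e, h2 _ huR.2, neg_zero]
      have := hJ.expand e u 1
      rw [one_smul] at this
      rw [this, heq, hu, h1]; ring
    · simpa using B.sub_mem h heB
    · simpa using Rad.sub_mem h huR
  obtain ⟨d', hd', hd'u⟩ := hout u huW huR
  -- three proper subspaces cover `W`
  obtain ⟨K, hK⟩ : ∃ K, K = W ⊓ LinearMap.ker ((β).flip (Jo u)) := ⟨_, rfl⟩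
  have hcover : ∀ x ∈ W, x ∈ K ∨ x ∈ A ∨ x ∈ B ⊔ (F ∙ u) := by
    intro x hx
    by_cases hxu : β x (Jo u) = 0
    · exact Or.inl (by rw [hK]; exact ⟨hx, hxu⟩)
    obtain ⟨k, hk⟩ : ∃ k, k = -(β x (Jo x)) / (2 * β x (Jo u)) := ⟨_, rfl⟩
    have h1 := hmem (x + k • u) (W.add_mem hx (W.smul_mem k huW)) (by
      rw [hJ.expand, hu, hk]
      have := hJ.two
      field_simp
      ring)
    have huA : u ∈ A := (hmem u huW hu).resolve_right huB
    rcases h1 with h1 | h1
    · refine Or.inr (Or.inl ?_)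
      simpa using A.sub_mem h1 (A.smul_mem k huA)
    · refine Or.inr (Or.inr ?_)
      simpa using (B ⊔ (F ∙ u)).sub_mem (Submodule.mem_sup_left h1)
        (Submodule.smul_mem _ k (Submodule.mem_sup_right (Submodule.mem_span_singleton_self u)))
  obtain ⟨x, hxW, hxK, hxA, hxB⟩ := exists_avoid_three hJ.two W K A (B ⊔ (F ∙ u))
    (fun h => hd'u ((hK ▸ h hd' : d' ∈ W ⊓ LinearMap.ker ((β).flip (Jo u))).2))
    (fun h => by
      have := Submodule.finrank_mono h
      omega)
    (fun h => by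
      have h1 := Submodule.finrank_mono h
      have h2 := Submodule.finrank_add_le_finrank_add_finrank B (F ∙ u)
      have h3 := finrank_span_le_card (R := F) ({u} : Set V)
      simp at h3
      omega)
  rcases hcover x hxW with h | h | h
  · exact hxK h
  · exact hxA h
  · exact hxB h

/-- A link between two singular vectors with non-zero product. -/
lemma exists_singular_link [Fintype F] (hm : 3 ≤ m) {z y : V} (hz : β z (Jo z) = 0)
    (hy : β y (Jo y) = 0) (hzy : β y (Jo z) ≠ 0) :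
    ∃ w, β z (Jo w) = 0 ∧ β y (Jo w) = 0 ∧ w ∉ Submodule.span F ({z, Jo z} : Set V) ∧
      w ∉ Submodule.span F ({y, Jo y} : Set V) ∧ β w (Jo w) = 0 := by
  obtain ⟨w, hw, hwA, hwB, hwq⟩ := Str3.exists_singular_avoid hJ hm
    (L := Submodule.span F ({Jo z, Jo y} : Set V)) (finrank_pair_le _ _)
    (Or.inr ⟨Jo y, Submodule.subset_span (by simp), Jo z, Submodule.subset_span (by simp), by
      rw [hJ.sq, map_smul, LinearMap.smul_apply, smul_eq_mul]; exact mul_ne_zero hJ.nu_ne hzy⟩)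
    (A := Submodule.span F ({z, Jo z} : Set V)) (finrank_pair_le _ _)
    (B := Submodule.span F ({y, Jo y} : Set V)) (by
      have := finrank_pair_le (F := F) y (Jo y); omega)
  refine ⟨w, ?_, ?_, hwA, hwB, hwq⟩
  · rw [← neg_eq_zero, ← hJ.skew]
    exact hw _ (Submodule.subset_span (by simp))
  · rw [← neg_eq_zero, ← hJ.skew]
    exact hw _ (Submodule.subset_span (by simp))

/-- The span of an invariant-free plane and its image. -/
lemma finrank_sup_map {L : Submodule F V} (hL : finrank F L = 2) (hnot : ¬ ∀ x ∈ L, Jo x ∈ L) :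
    finrank F ↥(L ⊔ L.map Jo) = 4 := by
  have hinj : Function.Injective Jo := fun x y h => by
    have := congrArg Jo h
    rw [hJ.sq, hJ.sq] at this
    exact smul_right_injective _ hJ.nu_ne this
  have hmap : finrank F (L.map Jo) = 2 := by
    rw [← (Submodule.equivMapOfInjective Jo hinj L).finrank_eq, hL]
  have h1 := Submodule.finrank_sup_add_finrank_inf_eq L (L.map Jo)
  have h0 : L ⊓ L.map Jo = ⊥ := by
    rw [eq_bot_iff]
    intro x hx
    by_contra hx0
    obtain ⟨x', hx', hxe⟩ := hx.2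
    have hx0' : x' ≠ 0 := fun h => hx0 (by simp [← hxe, h])
    have hle : Submodule.span F ({x', Jo x'} : Set V) ≤ L := by
      rw [Submodule.span_le]
      rintro z (rfl | rfl)
      · exact hx'
      · exact hxe ▸ hx.1
    have heq := Submodule.eq_of_le_of_finrank_le hle (by
      rw [hL]
      exact two_le_of_indep (Submodule.subset_span (by simp)) (Submodule.subset_span (by simp))
        fun s t hst => Str3.indep hJ hx0' hst)
    refine hnot fun z hz => ?_
    obtain ⟨s, t, rfl⟩ := Submodule.mem_span_pair.1 (heq.ge hz)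
    rw [← heq, map_add, map_smul, map_smul, hJ.sq, smul_smul]
    exact add_mem (Submodule.smul_mem _ _ (Submodule.subset_span (by simp)))
      (Submodule.smul_mem _ _ (Submodule.subset_span (by simp)))
  rw [h0, finrank_bot, hL, hmap] at h1
  omega

lemma finrank_perp_le [Finite F] {L : Submodule F V} (hL : finrank F L = 2)
    (hnot : ¬ ∀ x ∈ L, Jo x ∈ L) :
    finrank F ↥(LinearMap.BilinForm.orthogonal β (L ⊔ L.map Jo)) + 4 ≤ m + m := by
  have h1 : finrank F ↥(LinearMap.BilinForm.orthogonal β (L ⊔ L.map Jo)) =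
      finrank F V - finrank F ↥(L ⊔ L.map Jo) :=
    LinearMap.BilinForm.finrank_orthogonal sympBil_nondegenerate _
  have h2 := Str3.finrank_sup_map hJ hL hnot
  have h3 := Submodule.finrank_le (L ⊔ L.map Jo)
  have hV : finrank F V = m + m := by simp
  omega

/-- An isotropic plane spanning with its image an isotropic space is too large in dimension six. -/
lemma not_isotropic (hm : 3 ≤ m) {L : Submodule F V} (hL : finrank F L = 2)
    (hLW : L ≤ LinearMap.BilinForm.orthogonal β L) (hnot : ¬ ∀ x ∈ L, Jo x ∈ L)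
    (hcon : ∀ p ∈ L, ∀ q ∈ L, β (Jo p) q = 0) : 4 ≤ m := by
  have hsub : L ⊔ L.map Jo ≤ LinearMap.BilinForm.orthogonal β (L ⊔ L.map Jo) := by
    intro x hx y hy
    obtain ⟨x1, hx1, x2, hx2, rfl⟩ := Submodule.mem_sup.1 hx
    obtain ⟨x2, hx2', rfl⟩ := hx2
    obtain ⟨y1, hy1, y2, hy2, rfl⟩ := Submodule.mem_sup.1 hy
    obtain ⟨y2, hy2', rfl⟩ := hy2
    have e1 : β y1 x1 = 0 := hLW hx1 y1 hy1
    have e2 : β y2 x2 = 0 := hLW hx2' y2 hy2'
    show β (y1 + Jo y2) (x1 + Jo x2) = 0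
    rw [map_add, map_add, LinearMap.add_apply, LinearMap.add_apply, e1, hJ.J_J, e2,
      hcon y2 hy2' x1 hx1, spB_swap (Jo x2) y1, hcon x2 hx2' y1 hy1]
    ring
  have h1 := Str3.finrank_sup_map hJ hL hnot
  have h2 := Submodule.finrank_mono hsub
  have h3 : finrank F ↥(LinearMap.BilinForm.orthogonal β (L ⊔ L.map Jo)) =
      finrank F V - finrank F ↥(L ⊔ L.map Jo) :=
    LinearMap.BilinForm.finrank_orthogonal sympBil_nondegenerate _
  have hV : finrank F V = m + m := by simp
  omega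

end Str3

namespace Over3

variable {Jo : (Fin m ⊕ Fin m → F) →ₗ[F] (Fin m ⊕ Fin m → F)} {ν : F}
  {M : Subgroup (GL (Fin m ⊕ Fin m) F)} (hO : Over Jo ν M)
include hO

section finite

variable [Fintype F] (hm : 3 ≤ m)
include hm

/-- One transvection at a singular vector gives all of them. -/
lemma mem_centres_of_one {u : Fin m ⊕ Fin m → F} (hu0 : u ≠ 0)
    (hu : sympBil m F u (Jo u) = 0) {r : F} (hr : r ≠ 0) (h : spTau u r ∈ M) :
    u ∈ spCentres M := by
  obtain ⟨u', hu', h0, h1, -, -⟩ := hO.str.exists_partner (c := 0) hu0 hu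
    (fun a b e => hu0 (by simpa using e)) (by simp) (by simp)
  have hsq : ∀ a : F, spTau u (a * a * r) ∈ M := by
    intro a
    rcases eq_or_ne a 0 with rfl | ha
    · rw [zero_mul, zero_mul, spTau_zero']; exact one_mem M
    · obtain ⟨g, hgM, hgs, hgu, -⟩ := hO.exists_rot (c := 0) hu hu' h0 h1 (by simp) (by simp)
        (by simp) (by simp) (a := a) (b := 0) (by simpa using mul_ne_zero ha ha)
      have := mul_mem (mul_mem hgM h) (inv_mem hgM)
      rwa [conj_spTau hgs, hgu, zero_smul, add_zero, spTau_scale] at this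
  intro c
  obtain ⟨a, b, hab⟩ := FiniteField.exists_root_sum_quadratic
    (R := F) (f := Polynomial.X ^ 2) (g := Polynomial.X ^ 2 - Polynomial.C (c / r))
    (Polynomial.degree_X_pow 2) (by
      rw [Polynomial.degree_X_pow_sub_C (by norm_num)]; rfl)
    (FiniteField.odd_card_of_char_ne_two (fun e => hO.str.two (by
      have h := ringChar.Nat.cast_ringChar (R := F)
      rwa [e] at h)))
  simp only [Polynomial.eval_pow, Polynomial.eval_X, Polynomial.eval_sub, Polynomial.eval_C] at hab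
  have e : c = a * a * r + b * b * r := by
    have h2 : a * a + b * b = c / r := by linear_combination hab
    rw [← add_mul, h2, div_mul_cancel₀ _ hr]
  rw [e, spTau_add']
  exact mul_mem (hsq a) (hsq b)

/-- An overgroup sending a singular line to a non-line has a centre. -/
lemma exists_centre {g : GL (Fin m ⊕ Fin m) F} (hg : g ∈ M) {v : Fin m ⊕ Fin m → F}
    (hv0 : v ≠ 0) (hv : sympBil m F v (Jo v) = 0)
    (hnot : ¬ ∀ x ∈ Submodule.span F ({mat[g] *ᵥ Jo v, mat[g] *ᵥ v} : Set (Fin m ⊕ Fin m → F)),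
      Jo x ∈ Submodule.span F ({mat[g] *ᵥ Jo v, mat[g] *ᵥ v} : Set (Fin m ⊕ Fin m → F))) :
    ∃ u, u ≠ 0 ∧ sympBil m F u (Jo u) = 0 ∧ u ∈ spCentres M := by
  have hJ := hO.str
  have hgs := hO.le hg
  set a := mat[g] *ᵥ Jo v with ha
  set b := mat[g] *ᵥ v with hb
  set L := Submodule.span F ({a, b} : Set (Fin m ⊕ Fin m → F)) with hL
  have hba : sympBil m F b a = 0 := by rw [ha, hb, GeoClasses.mem_spGL_iff.1 hgs]; exact hv
  have hab : sympBil m F a b = 0 := by rw [spB_swap b a, hba, neg_zero]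
  have hgrp : ∀ t, pair a b t (-(ν * t)) ∈ M := by
    intro t
    have := mul_mem (mul_mem hg (hO.root_mem hv t)) (inv_mem hg)
    rwa [conj_pair hgs] at this
  have haL : a ∈ L := Submodule.subset_span (by simp)
  have hbL : b ∈ L := Submodule.subset_span (by simp)
  have hL0 : ∀ {w}, (∀ x ∈ L, sympBil m F x w = 0) ↔ sympBil m F a w = 0 ∧ sympBil m F b w = 0 := by
    intro w
    refine ⟨fun h => ⟨h a haL, h b hbL⟩, fun h x hx => ?_⟩
    obtain ⟨s, t, rfl⟩ := Submodule.mem_span_pair.1 hx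
    simp [h.1, h.2]
  -- a singular vector `u ⊥ L` outside `L` with `Jo u` not orthogonal to `L`
  obtain ⟨u, huL, hu, hua, hub, hφ⟩ : ∃ u, u ∉ L ∧ sympBil m F u (Jo u) = 0 ∧
      sympBil m F a u = 0 ∧ sympBil m F b u = 0 ∧
      (sympBil m F a (Jo u) ≠ 0 ∨ sympBil m F b (Jo u) ≠ 0) := by
    have hLfin : finrank F L = 2 := by
      refine le_antisymm ?_ ?_
      · classical
        have h0 := finrank_span_finset_le_card (R := F) ({a, b} : Finset (Fin m ⊕ Fin m → F))
        have := Finset.card_insert_le a ({b} : Finset (Fin m ⊕ Fin m → F))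
        unfold Set.finrank at h0
        rw [Finset.card_singleton] at this
        rw [Finset.coe_pair] at h0
        rw [hL]
        omega
      · refine two_le_of_indep haL hbL fun s t hst => ?_
        rw [ha, hb, ← Matrix.mulVec_smul, ← Matrix.mulVec_smul, ← Matrix.mulVec_add,
          ← Matrix.mulVec_zero (A := mat[g])] at hst
        have h0 := GeoClasses.mulVec_injective g hst
        exact Str3.indep hJ hv0 (by rw [add_comm]; exact h0) |>.symm
    have hLW : L ≤ LinearMap.BilinForm.orthogonal (sympBil m F) L := by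
      intro x hx y hy
      obtain ⟨s, t, rfl⟩ := Submodule.mem_span_pair.1 hx
      obtain ⟨s', t', rfl⟩ := Submodule.mem_span_pair.1 hy
      show sympBil m F (s' • a + t' • b) (s • a + t • b) = 0
      simp [hab, hba, sympBil_isAlt.self_eq_zero]
    have hr : 4 ≤ m ∨ ∃ p ∈ L, ∃ q ∈ L, sympBil m F (Jo p) q ≠ 0 := by
      by_cases hcon : ∀ p ∈ L, ∀ q ∈ L, sympBil m F (Jo p) q = 0
      · exact Or.inl (Str3.not_isotropic hJ hm hLfin hLW hnot hcon)
      · push Not at hcon
        exact Or.inr hcon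
    obtain ⟨u, hu1, huL, huH, hu⟩ := Str3.exists_singular_avoid hJ hm
      (L := L) (by omega) hr
      (A := L) (B := LinearMap.BilinForm.orthogonal (sympBil m F) (L ⊔ L.map Jo))
      (hLfin.le) (Str3.finrank_perp_le hJ hLfin hnot)
    refine ⟨u, huL, hu, hu1 a haL, hu1 b hbL, ?_⟩
    by_contra hcon
    push Not at hcon
    refine huH fun x hx => ?_
    obtain ⟨y, hy, z, hz, rfl⟩ := Submodule.mem_sup.1 hx
    obtain ⟨z, hz', rfl⟩ := hz
    show sympBil m F (y + Jo z) u = 0
    rw [map_add, LinearMap.add_apply, hu1 y hy, hJ.skew, (hL0.2 hcon) z hz', neg_zero, add_zero]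
  have hu0 : u ≠ 0 := fun h => huL (h ▸ L.zero_mem)
  refine ⟨u, hu0, hu, ?_⟩
  obtain ⟨φa, hφa⟩ : ∃ p, p = sympBil m F a (Jo u) := ⟨_, rfl⟩
  obtain ⟨φb, hφb⟩ : ∃ p, p = sympBil m F b (Jo u) := ⟨_, rfl⟩
  obtain ⟨N, hN⟩ : ∃ p, p = φa * φa - ν * (φb * φb) := ⟨_, rfl⟩
  have hN0 : N ≠ 0 := hN ▸ hJ.norm_ne (by rw [hφa, hφb]; exact hφ)
  obtain ⟨a₁, ha₁⟩ : ∃ p, p = φa • a - (ν * φb) • b := ⟨_, rfl⟩
  obtain ⟨c, hc⟩ : ∃ p, p = φb • a - φa • b := ⟨_, rfl⟩
  obtain ⟨b₁, hb₁⟩ : ∃ p, p = N⁻¹ • Jo u := ⟨_, rfl⟩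
  have huJ : sympBil m F (Jo u) u = 0 := by rw [spB_swap u (Jo u), hu, neg_zero]
  have hau : sympBil m F a u = 0 := hua
  have hca₁ : sympBil m F c a₁ = 0 := by
    simp [ha₁, hc, hab, hba, sympBil_isAlt.self_eq_zero]
  have ha₁b₁ : sympBil m F a₁ b₁ = 1 := by
    rw [hb₁, map_smul, ha₁, map_sub, map_smul, map_smul, LinearMap.sub_apply,
      LinearMap.smul_apply, LinearMap.smul_apply, ← hφa, ← hφb, smul_eq_mul, smul_eq_mul,
      smul_eq_mul, show φa * φa - ν * φb * φb = N by rw [hN]; ring, inv_mul_cancel₀ hN0]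
  have hcu : sympBil m F c u = 0 := by simp [hc, hua, hub]
  have hcJu : sympBil m F c (Jo u) = 0 := by
    simp [hc, ← hφa, ← hφb]
    ring
  have hcb₁ : sympBil m F c b₁ = 0 := by rw [hb₁, map_smul, hcJu, smul_zero]
  have ha₁u : sympBil m F a₁ u = 0 := by simp [ha₁, hua, hub]
  have hb₁u : sympBil m F b₁ u = 0 := by simp [hb₁, huJ]
  -- the braid
  have hz : ∀ s : F, s ≠ 0 → pair c u (-(ν * s)) (ν / (N * N * s)) ∈ M := by
    intro s hs
    have hx : pair a₁ c s (-(ν * s)) ∈ M := by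
      convert hgrp (N * s) using 1
      refine gl_ext_mulVec fun x => ?_
      rw [pair_apply (by rw [spB_swap c a₁, hca₁, neg_zero]), pair_apply hab, ha₁, hc]
      simp only [map_sub, map_smul, smul_eq_mul, hN]
      module
    have hy : pair b₁ u s⁻¹ (-(ν / (N * N * s))) ∈ M := by
      convert hO.root_mem hu ((N * N * s)⁻¹) using 1
      rw [pair, pair, hb₁, spTau_scale, div_eq_mul_inv]
      congr 2 <;> simp only [mul_inv] <;> ring
    obtain ⟨A, hA⟩ : ∃ A, A = spTau a₁ s := ⟨_, rfl⟩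
    obtain ⟨B, hB⟩ : ∃ B, B = spTau b₁ s⁻¹ := ⟨_, rfl⟩
    obtain ⟨C, hC⟩ : ∃ C, C = spTau c (-(ν * s)) := ⟨_, rfl⟩
    obtain ⟨D, hD⟩ : ∃ D, D = spTau u (-(ν / (N * N * s))) := ⟨_, rfl⟩
    have hCA : Commute C A := hC ▸ hA ▸ spTau_comm hca₁ _ _
    have hCB : Commute C B := hC ▸ hB ▸ spTau_comm hcb₁ _ _
    have hDA : Commute D A := hD ▸ hA ▸ (spTau_comm ha₁u _ _).symm
    have hDB : Commute D B := hD ▸ hB ▸ (spTau_comm hb₁u _ _).symm
    have hCD : Commute C D := hC ▸ hD ▸ spTau_comm hcu _ _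
    have hbr : A * B * A = B * A * B := hA ▸ hB ▸ spTau_braid ha₁b₁ (mul_inv_cancel₀ hs)
    have hxM : A * C ∈ M := hA ▸ hC ▸ hx
    have hyM : B * D ∈ M := hB ▸ hD ▸ hy
    have e : A * C * (B * D) * (A * C) * (B * D * (A * C) * (B * D))⁻¹ = C * D⁻¹ := by
      have l : A * C * (B * D) * (A * C) = A * B * A * (C * C * D) := by
        calc _ = A * (C * B) * D * A * C := by group
          _ = A * B * (C * (D * A)) * C := by rw [hCB.eq]; group
          _ = A * B * (C * A) * D * C := by rw [hDA.eq]; group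
          _ = A * B * A * (C * (D * C)) := by rw [hCA.eq]; group
          _ = _ := by rw [← hCD.eq]; group
      have r : B * D * (A * C) * (B * D) = B * A * B * (C * D * D) := by
        calc _ = B * (D * A) * C * B * D := by group
          _ = B * A * (D * (C * B)) * D := by rw [hDA.eq]; group
          _ = B * A * (D * B) * C * D := by rw [hCB.eq]; group
          _ = B * A * B * (D * C) * D := by rw [hDB.eq]; group
          _ = _ := by rw [← hCD.eq]; group
      rw [l, r, ← hbr]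
      calc _ = A * B * A * (C * C * D * D⁻¹ * D⁻¹ * C⁻¹) * (A * B * A)⁻¹ := by group
        _ = A * B * A * (C * (C * D⁻¹) * C⁻¹) * (A * B * A)⁻¹ := by group
        _ = A * B * A * (C * D⁻¹) * (A * B * A)⁻¹ := by
          rw [((Commute.refl C).mul_right hCD.inv_right).eq]; group
        _ = C * D⁻¹ := by
          have h1 : Commute (A * B * A) (C * D⁻¹) :=
            ((hCA.symm.mul_right hDA.symm.inv_right).mul_left
              (hCB.symm.mul_right hDB.symm.inv_right)).mul_left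
              (hCA.symm.mul_right hDA.symm.inv_right)
          rw [h1.eq]; group
    have hmem : C * D⁻¹ ∈ M :=
      e ▸ mul_mem (mul_mem (mul_mem hxM hyM) hxM) (inv_mem (mul_mem (mul_mem hyM hxM) hyM))
    have hDi : D⁻¹ = spTau u (ν / (N * N * s)) := by
      rw [hD]
      refine inv_eq_of_mul_eq_one_right ?_
      rw [← spTau_add', neg_add_cancel, spTau_zero']
    rw [pair, ← hC, ← hDi]
    exact hmem
  -- move `u` to `Jo u` fixing `c`
  obtain ⟨u', hu', h0, h1, hc3, hc4⟩ := hJ.exists_partner hu0 hu (c := c) (by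
    intro p q e
    have hcL : c ∈ L := hc ▸ L.sub_mem (L.smul_mem _ haL) (L.smul_mem _ hbL)
    rcases eq_or_ne q 0 with rfl | hq
    · exact huL (by simpa [e] using L.smul_mem p hcL)
    · have hcl : ∀ x ∈ L, sympBil m F x c = 0 := hL0.2 ⟨by simp [hc, hab, sympBil_isAlt.self_eq_zero],
        by simp [hc, hba, sympBil_isAlt.self_eq_zero]⟩
      have h1 : ∀ x ∈ L, sympBil m F x (Jo u) = 0 := by
        intro x hx
        have h := hL0.2 ⟨hua, hub⟩ x hx
        rw [e, map_add, map_smul, map_smul, hcl x hx, smul_zero, zero_add, smul_eq_mul,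
          mul_eq_zero, or_iff_right hq] at h
        rw [e, map_add, map_smul, map_smul, map_add, map_smul, map_smul, hJ.sq, map_smul, h,
          hcl x hx, smul_zero, smul_zero, smul_zero, add_zero]
      rcases hφ with h | h
      · exact h (h1 a haL)
      · exact h (h1 b hbL)) hcu hcJu
  obtain ⟨n, hnM, hns, hnu, hnc⟩ := hO.exists_rot hu hu' h0 h1 hcu hcJu hc3 hc4 (a := 0) (b := 1)
    (by simpa using hJ.nu_ne)
  rw [zero_smul, zero_add, one_smul] at hnu
  obtain ⟨r, hr⟩ : ∃ r, r = ν / (N * N) := ⟨_, rfl⟩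
  have h1m : spTau c (-ν) * spTau u r ∈ M := by
    have := hz 1 one_ne_zero
    rwa [mul_one, mul_one, ← hr] at this
  have h2m : spTau c (-ν) * spTau (Jo u) r ∈ M := by
    have := mul_mem (mul_mem hnM h1m) (inv_mem hnM)
    rwa [← pair, conj_pair hns, hnc, hnu] at this
  have h3m : spTau (Jo u) r * spTau u (-(ν * r)) ∈ M := hO.root_mem hu r
  have h4 : (spTau (Jo u) r * spTau u (-(ν * r)))⁻¹ *
      ((spTau c (-ν) * spTau u r)⁻¹ * (spTau c (-ν) * spTau (Jo u) r)) =
      spTau u (r * (ν - 1)) := by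
    have hcomm := spTau_comm (F := F) huJ r (-r)
    have i1 : (spTau u r)⁻¹ = spTau u (-r) :=
      inv_eq_of_mul_eq_one_right (by rw [← spTau_add', add_neg_cancel, spTau_zero'])
    have i2 : (spTau u (-(ν * r)))⁻¹ = spTau u (ν * r) :=
      inv_eq_of_mul_eq_one_right (by rw [← spTau_add', neg_add_cancel, spTau_zero'])
    rw [_root_.mul_inv_rev, _root_.mul_inv_rev, i1, i2]
    calc _ = spTau u (ν * r) * (spTau (Jo u) r)⁻¹ * (spTau u (-r) * spTau (Jo u) r) := by group
      _ = spTau u (ν * r) * spTau u (-r) := by rw [← hcomm.eq]; group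
      _ = _ := by rw [← spTau_add']; congr 1; ring
  refine Over3.mem_centres_of_one hO hm hu0 hu (r := r * (ν - 1))
    (mul_ne_zero (hr ▸ div_ne_zero hJ.nu_ne (mul_ne_zero hN0 hN0)) hJ.one_sub_ne) ?_
  rw [← h4]
  exact mul_mem (inv_mem h3m) (mul_mem (inv_mem h1m) h2m)

/-- A singular centre spreads to everything. -/
lemma all_centres {u : Fin m ⊕ Fin m → F} (hu0 : u ≠ 0) (hu : sympBil m F u (Jo u) = 0)
    (hc : u ∈ spCentres M) : ∀ v, v ∈ spCentres M := by
  have hJ := hO.str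
  have step : ∀ {u y : Fin m ⊕ Fin m → F}, sympBil m F u (Jo u) = 0 → u ∈ spCentres M →
      sympBil m F y (Jo y) = 0 → sympBil m F y u ≠ 0 → y ∈ spCentres M := by
    intro u y hu hc hy hyu
    have hu0 : u ≠ 0 := fun h => hyu (by simp [h])
    obtain ⟨u', hu', h0, h1, -, -⟩ := hJ.exists_partner (c := 0) hu0 hu
      (fun a b e => hu0 (by simpa using e)) (by simp) (by simp)
    obtain ⟨B, hB⟩ : ∃ B, B = sympBil m F u y := ⟨_, rfl⟩
    obtain ⟨T, hT⟩ : ∃ T, T = sympBil m F u (Jo y) := ⟨_, rfl⟩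
    have hB0 : B ≠ 0 := by rw [hB, spB_swap y u]; exact neg_ne_zero.2 hyu
    obtain ⟨D, hD⟩ : ∃ D, D = T * T - ν * (B * B) := ⟨_, rfl⟩
    have hD0 : D ≠ 0 := hD ▸ hJ.norm_ne (Or.inr hB0)
    obtain ⟨g, hgM, hgs, hgu, -⟩ := hO.exists_rot (c := 0) hu hu' h0 h1 (by simp) (by simp)
      (by simp) (by simp) (a := T / D) (b := B / D)
      (hJ.norm_ne (Or.inr (div_ne_zero hB0 hD0)))
    obtain ⟨w, hw⟩ : ∃ w, w = (T / D) • u + (B / D) • Jo u := ⟨_, rfl⟩
    have hwc : w ∈ spCentres M := by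
      rw [hw, ← hgu]
      exact mulVec_mem_spCentres hc hgM hgs
    have h2 : sympBil m F (Jo u) y = -T := by rw [hJ.skew, hT]
    have h3 : sympBil m F (Jo u) (Jo y) = -ν * B := by rw [hJ.J_J, hB]
    have hwy0 : sympBil m F w y = 0 := by
      rw [hw, map_add, map_smul, map_smul, LinearMap.add_apply, LinearMap.smul_apply,
        LinearMap.smul_apply, h2, ← hB, smul_eq_mul, smul_eq_mul]
      ring
    have hwy1 : sympBil m F w (Jo y) = 1 := by
      rw [hw, map_add, map_smul, map_smul, LinearMap.add_apply, LinearMap.smul_apply,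
        LinearMap.smul_apply, h3, ← hT, smul_eq_mul, smul_eq_mul]
      field_simp
      rw [hD]
      ring
    have hwq : sympBil m F w (Jo w) = 0 := by
      rw [hw]
      simp [hJ.sq, hJ.J_J, hu, hJ.J_left, sympBil_isAlt.self_eq_zero]
    obtain ⟨s, hsM, hss, hsw⟩ := hO.exists_swap hwq hy hwy0 hwy1
    rw [← hsw]
    exact mulVec_mem_spCentres hwc hsM hss
  have hsing : ∀ y, y ≠ 0 → sympBil m F y (Jo y) = 0 → y ∈ spCentres M := by
    intro y hy0 hy
    obtain ⟨p, hp, hpu, hpy⟩ := Str3.exists_singular_two' hJ hm hu0 hy0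
    exact step hp (step hu hc hp hpu) hy (by rw [spB_swap p y]; exact neg_ne_zero.2 hpy)
  intro v
  rcases eq_or_ne v 0 with rfl | hv0
  · intro c
    rw [show spTau (0 : Fin m ⊕ Fin m → F) c = 1 from gl_ext_mulVec fun x => by simp [spTau_apply]]
    exact one_mem M
  by_cases hq : sympBil m F v (Jo v) = 0
  · exact hsing v hv0 hq
  obtain ⟨p, hp, hpv, hpJv⟩ := Str3.exists_singular_two' hJ hm hv0 (hJ.J_ne hv0)
  obtain ⟨k, hk⟩ : ∃ k, k = sympBil m F v (Jo v) / (2 * sympBil m F p (Jo v)) := ⟨_, rfl⟩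
  have hk0 : k ≠ 0 := hk ▸ div_ne_zero hq (mul_ne_zero hJ.two hpJv)
  have hr : sympBil m F (v + -k • p) (Jo (v + -k • p)) = 0 := by
    rw [hJ.expand, hp, hJ.S_symm v p, hk]
    have := hJ.two
    field_simp
    ring
  have hp0 : p ≠ 0 := fun h => hpv (by simp [h])
  have hr0 : v + -k • p ≠ 0 := fun h => by
    apply hq
    have e : v = k • p := by linear_combination (norm := module) h
    simp [e, hp]
  have := plane_mem_spCentres (hsing p hp0 hp) (hsing _ hr0 hr)
    (by simpa [map_add, map_smul, sympBil_isAlt.self_eq_zero] using hpv) k 1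
  simpa [one_smul] using this

/-- A map preserving all singular lines is a scalar of the overfield. -/
lemma eq_scalar_of_lines (T : (Fin m ⊕ Fin m → F) →ₗ[F] (Fin m ⊕ Fin m → F))
    (hT : ∀ v, sympBil m F v (Jo v) = 0 → ∃ a b : F, T v = a • v + b • Jo v) :
    ∃ a b : F, ∀ v, T v = a • v + b • Jo v := by
  have hJ := hO.str
  have same : ∀ {v w : Fin m ⊕ Fin m → F} {a b c d : F}, v ≠ 0 →
      sympBil m F v (Jo v) = 0 → sympBil m F w (Jo w) = 0 → sympBil m F v (Jo w) = 0 →
      (∀ x y : F, w ≠ x • v + y • Jo v) → T v = a • v + b • Jo v → T w = c • w + d • Jo w →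
      a = c ∧ b = d := by
    intro v w a b c d hv0 hv hw hvw hind hTv hTw
    have hvw1 : sympBil m F (v + (1 : F) • w) (Jo (v + (1 : F) • w)) = 0 := by
      rw [hJ.expand, hv, hw, hvw]; ring
    obtain ⟨e, f, hef⟩ := hT _ hvw1
    rw [one_smul, map_add, hTv, hTw, map_add] at hef
    have h2 : (c - e) • w + (d - f) • Jo w = (e - a) • v + (f - b) • Jo v := by
      linear_combination (norm := module) hef
    by_cases hcd : c - e = 0 ∧ d - f = 0
    · rw [hcd.1, hcd.2, zero_smul, zero_smul, zero_add] at h2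
      by_cases hab : e - a = 0 ∧ f - b = 0
      · exact ⟨by linear_combination -hab.1 - hcd.1, by linear_combination -hab.2 - hcd.2⟩
      · exfalso
        have hN := hJ.norm_ne (a := e - a) (b := f - b) (by tauto)
        have h3 := congrArg Jo h2
        rw [map_zero, map_add, map_smul, map_smul, hJ.sq] at h3
        have h4 : ((e - a) * (e - a) - ν * ((f - b) * (f - b))) • v = 0 := by
          linear_combination (norm := module) (f - b) • h3 - (e - a) • h2
        exact hv0 ((smul_eq_zero.1 h4).resolve_left hN)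
    · exfalso
      obtain ⟨p, hp⟩ : ∃ p, p = c - e := ⟨_, rfl⟩
      obtain ⟨q, hq⟩ : ∃ q, q = d - f := ⟨_, rfl⟩
      obtain ⟨s, hs⟩ : ∃ s, s = e - a := ⟨_, rfl⟩
      obtain ⟨t, ht⟩ : ∃ t, t = f - b := ⟨_, rfl⟩
      rw [← hp, ← hq, ← hs, ← ht] at h2
      rw [← hp, ← hq] at hcd
      have hN := hJ.norm_ne (a := p) (b := q) (by tauto)
      have h3 := congrArg Jo h2
      rw [map_add, map_add, map_smul, map_smul, map_smul, map_smul, hJ.sq, hJ.sq] at h3
      have h4 : (p * p - ν * (q * q)) • w =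
          (p * s - q * t * ν) • v + (p * t - q * s) • Jo v := by
        linear_combination (norm := module) p • h2 - q • h3
      refine hind ((p * s - q * t * ν) / (p * p - ν * (q * q)))
        ((p * t - q * s) / (p * p - ν * (q * q))) ?_
      have h5 := congrArg (fun z => (p * p - ν * (q * q))⁻¹ • z) h4
      simp only [smul_smul, inv_mul_cancel₀ hN, one_smul, smul_add] at h5
      rw [div_eq_inv_mul, div_eq_inv_mul]
      exact h5
  obtain ⟨e, he0, hes⟩ := Str3.exists_singular hJ (show 2 ≤ m by omega)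
  obtain ⟨a, b, hab⟩ := hT e hes
  have hall : ∀ v, sympBil m F v (Jo v) = 0 → T v = a • v + b • Jo v := by
    intro v hv
    rcases eq_or_ne v 0 with rfl | hv0
    · simp
    -- a singular vector independent of both, made orthogonal to `Jo e`
    obtain ⟨z, hzq, hze, hzv⟩ := Str3.exists_singular_off hJ hm e v
    obtain ⟨z₁, hz₁, hz₁q, hz₁e, hz₁v⟩ := Str3.exists_multiple hJ hzq hze hzv (w := e)
    obtain ⟨p, q, hpq⟩ := hT z₁ hz₁q
    have i1 := same he0 hes hz₁q hz₁ (Str3.indep_of_not_mem hJ hz₁e) hab hpq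
    obtain ⟨c, d, hcd⟩ := hT v hv
    have i2 : c = p ∧ d = q := by
      by_cases hzz : sympBil m F v (Jo z₁) = 0
      · exact same hv0 hv hz₁q hzz (Str3.indep_of_not_mem hJ hz₁v) hcd hpq
      -- two steps
      obtain ⟨z₂, hz₂a, hz₂b, hz₂1, hz₂v, hz₂q⟩ := Str3.exists_singular_link hJ hm hz₁q hv hzz
      obtain ⟨r, s, hrs⟩ := hT z₂ hz₂q
      have hz₁0 : z₁ ≠ 0 := fun h => hz₁e (h ▸ zero_mem _)
      have j1 := same hz₁0 hz₁q hz₂q hz₂a (Str3.indep_of_not_mem hJ hz₂1) hpq hrs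
      have j2 := same hv0 hv hz₂q hz₂b (Str3.indep_of_not_mem hJ hz₂v) hcd hrs
      exact ⟨j2.1.trans j1.1.symm, j2.2.trans j1.2.symm⟩
    rw [hcd, i2.1, i2.2, i1.1, i1.2]
  refine ⟨a, b, fun v => ?_⟩
  rcases eq_or_ne v 0 with rfl | hv0
  · simp
  by_cases hq : sympBil m F v (Jo v) = 0
  · exact hall v hq
  obtain ⟨p, hp, -, hpJv⟩ := Str3.exists_singular_two' hJ hm hv0 (hJ.J_ne hv0)
  obtain ⟨k, hk⟩ : ∃ k, k = sympBil m F v (Jo v) / (2 * sympBil m F p (Jo v)) := ⟨_, rfl⟩
  have hr : sympBil m F (v + -k • p) (Jo (v + -k • p)) = 0 := by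
    rw [hJ.expand, hp, hJ.S_symm v p, hk]
    have := hJ.two
    field_simp
    ring
  have h1 := hall _ hr
  rw [map_add, map_smul, hall p hp, map_add, map_smul] at h1
  linear_combination (norm := module) h1

/-- An element outside the normaliser forces everything. -/
theorem eq_spGL {g : GL (Fin m ⊕ Fin m) F} (hg : g ∈ M)
    (hout : ¬ ∃ ε : F, (ε = 1 ∨ ε = -1) ∧ ∀ x, mat[g] *ᵥ Jo x = ε • Jo (mat[g] *ᵥ x)) :
    M = Cfsg.spGL m F := by
  have hJ := hO.str
  by_cases hall : ∀ v, sympBil m F v (Jo v) = 0 →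
      ∀ x ∈ Submodule.span F ({mat[g] *ᵥ Jo v, mat[g] *ᵥ v} : Set (Fin m ⊕ Fin m → F)),
        Jo x ∈ Submodule.span F ({mat[g] *ᵥ Jo v, mat[g] *ᵥ v} : Set (Fin m ⊕ Fin m → F))
  swap
  · push Not at hall
    obtain ⟨v, hv, x, hx, hx'⟩ := hall
    have hv0 : v ≠ 0 := fun h => hx' (by
      subst h
      simp only [map_zero, Matrix.mulVec_zero, Set.pair_eq_singleton, Submodule.span_zero_singleton,
        Submodule.mem_bot] at hx ⊢
      rw [hx, map_zero])
    obtain ⟨u, hu0, hu, huc⟩ := Over3.exists_centre hO hm hg hv0 hv fun h => hx' (h x hx)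
    exact le_antisymm hO.le (spGL_le_of_spTau_mem fun w c => Over3.all_centres hO hm hu0 hu huc w c)
  exfalso
  let T : (Fin m ⊕ Fin m → F) →ₗ[F] (Fin m ⊕ Fin m → F) :=
    Matrix.toLin' mat[g⁻¹] ∘ₗ Jo ∘ₗ Matrix.toLin' mat[g]
  have hTap : ∀ v, mat[g] *ᵥ T v = Jo (mat[g] *ᵥ v) := fun v => by
    show mat[g] *ᵥ (mat[g⁻¹] *ᵥ Jo (mat[g] *ᵥ v)) = _
    rw [mulVec_inv_cancel]
  obtain ⟨a, b, hab⟩ := Over3.eq_scalar_of_lines hO hm T fun v hv => by
    obtain ⟨s, t, hst⟩ := Submodule.mem_span_pair.1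
      (hall v hv _ (Submodule.subset_span (by simp : mat[g] *ᵥ v ∈ _)))
    refine ⟨t, s, GeoClasses.mulVec_injective g ?_⟩
    show mat[g] *ᵥ T v = mat[g] *ᵥ _
    rw [hTap, ← hst, Matrix.mulVec_add, Matrix.mulVec_smul, Matrix.mulVec_smul]
    abel
  obtain ⟨x₀, hx₀⟩ := exists_ne_zero_vec (F := F) (m := m) (by omega)
  obtain ⟨p, -, hp, -⟩ := Str3.exists_singular_two' hJ hm hx₀ hx₀
  have hgg : ∀ x, Jo (Jo (mat[g] *ᵥ x)) = mat[g] *ᵥ T (T x) := fun x => by rw [hTap, hTap]
  have h := hgg x₀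
  rw [hJ.sq, ← Matrix.mulVec_smul] at h
  have h' := GeoClasses.mulVec_injective g h
  rw [hab (T x₀), hab x₀, map_add, map_smul, map_smul, hJ.sq] at h'
  have hind : ∀ p q : F, p • x₀ + q • Jo x₀ = 0 → p = 0 ∧ q = 0 := by
    intro p q hpq
    by_contra hne
    have hN := hJ.norm_ne (a := p) (b := q) (by tauto)
    have h3 := congrArg Jo hpq
    rw [map_add, map_smul, map_smul, hJ.sq, map_zero] at h3
    have h4 : (p * p - ν * (q * q)) • x₀ = 0 := by
      linear_combination (norm := module) p • hpq - q • h3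
    exact hx₀ ((smul_eq_zero.1 h4).resolve_left hN)
  obtain ⟨e1, e2⟩ := hind (a * a + b * b * ν - ν) (2 * (a * b)) (by
    linear_combination (norm := module) (-1 : F) • h')
  have hab0 : a * b = 0 := (mul_eq_zero.1 e2).resolve_left hJ.two
  have ha : a = 0 := by
    rcases mul_eq_zero.1 hab0 with h | h
    · exact h
    · exact absurd (by rw [h] at e1; linear_combination e1 : a * a = ν) (hJ.nsq a)
  subst ha
  have hb : b * b = 1 := by
    have : (b * b - 1) * ν = 0 := by linear_combination e1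
    exact sub_eq_zero.1 ((mul_eq_zero.1 this).resolve_right hJ.nu_ne)
  apply hout
  refine ⟨b, mul_self_eq_one_iff.1 hb, fun x => ?_⟩
  have h5 := hTap x
  rw [hab, zero_smul, zero_add, Matrix.mulVec_smul] at h5
  rw [← h5, smul_smul, hb, one_smul]

end finite

end Over3

/-- The unitary overfield stabilisers are maximal once overgroups escaping the normaliser are full. -/
theorem spGL_overfield_maximal_of_eq {F : Type*} [Field F] [Fintype F] {m : ℕ} (hm : 2 ≤ m)
    (heq : ∀ {Jo : (Fin m ⊕ Fin m → F) →ₗ[F] (Fin m ⊕ Fin m → F)} {ν : F}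
      {M : Subgroup (GL (Fin m ⊕ Fin m) F)}, Over Jo ν M → ∀ g ∈ M,
      (¬ ∃ ε : F, (ε = 1 ∨ ε = -1) ∧ ∀ x,
        (g : Matrix (Fin m ⊕ Fin m) (Fin m ⊕ Fin m) F) *ᵥ Jo x =
          ε • Jo ((g : Matrix (Fin m ⊕ Fin m) (Fin m ⊕ Fin m) F) *ᵥ x)) → M = Cfsg.spGL m F)
    (hodd : Odd (Fintype.card F)) (K : Subalgebra F (Matrix (Fin m ⊕ Fin m) (Fin m ⊕ Fin m) F)) (hK : Cfsg.Geo.IsFieldSubalgebra 2 K) (hac : Cfsg.Geo.IsAdjointClosedFor (Cfsg.sympForm m F) K) (hnsa : ¬ Cfsg.Geo.IsSelfAdjointFor (Cfsg.sympForm m F) K) : Cfsg.Geo.IsMaximalIn (Cfsg.spGL m F) (Cfsg.Geo.subalgebraNormalizer K ⊓ Cfsg.spGL m F) := by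
  classical
  have h2 : (2 : F) ≠ 0 := GeoClasses.two_ne_zero_iff_odd_card.2 hodd
  have : Nonempty (Fin m ⊕ Fin m) := ⟨Sum.inl ⟨0, by omega⟩⟩
  obtain ⟨a, ν, haK, ha2, hns, hskew, hspan⟩ := Elusive.exists_skew_element h2 hK hac hnsa
  let Jo : (Fin m ⊕ Fin m → F) →ₗ[F] (Fin m ⊕ Fin m → F) := Matrix.toLin' a
  have hJo : ∀ x, Jo x = a *ᵥ x := fun x => Matrix.toLin'_apply a x
  have hJ : Str Jo ν :=
    ⟨h2, hns, fun x => by
      rw [hJo, hJo, Matrix.mulVec_mulVec, ha2, Matrix.smul_mulVec, Matrix.one_mulVec],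
      fun x y => by rw [hJo, hJo]; exact hskew x y⟩
  -- semilinear maps normalise `K`
  have hnorm : ∀ (g : GL (Fin m ⊕ Fin m) F) (ε : F),
      (∀ x, (g : Matrix (Fin m ⊕ Fin m) (Fin m ⊕ Fin m) F) *ᵥ Jo x =
        ε • Jo ((g : Matrix (Fin m ⊕ Fin m) (Fin m ⊕ Fin m) F) *ᵥ x)) →
      g ∈ Cfsg.Geo.subalgebraNormalizer K := by
    intro g ε hg
    have hmat : (g : Matrix (Fin m ⊕ Fin m) (Fin m ⊕ Fin m) F) * a = ε • (a * g) := by
      refine Matrix.toLin'.injective (LinearMap.ext fun x => ?_)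
      rw [Matrix.toLin'_apply, Matrix.toLin'_apply, Matrix.smul_mulVec, ← Matrix.mulVec_mulVec,
        ← Matrix.mulVec_mulVec, ← hJo, ← hJo]
      exact hg x
    refine MaxSub.mem_normalizer_iff_map_le.2 fun k hk => ?_
    obtain ⟨s, t, rfl⟩ := hspan k hk
    have e : (g : Matrix (Fin m ⊕ Fin m) (Fin m ⊕ Fin m) F) * (s • 1 + t • a) *
        ((g⁻¹ : GL (Fin m ⊕ Fin m) F) : Matrix (Fin m ⊕ Fin m) (Fin m ⊕ Fin m) F) =
        s • 1 + (t * ε) • a := by
      rw [mul_add, add_mul, Matrix.mul_smul, Matrix.mul_smul, mul_one, hmat, smul_smul,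
        Matrix.smul_mul, Matrix.smul_mul, mul_assoc a, Units.mul_inv, mul_one]
    rw [e]
    exact add_mem (K.smul_mem K.one_mem s) (K.smul_mem haK _)
  refine ⟨lt_of_le_of_ne inf_le_right fun hEq => ?_, fun M hHM hMS => ?_⟩
  · obtain ⟨v, hv⟩ := ClassicalMax.exists_ne_zero_vec (F := F) (m := m) (by omega)
    have hmem : spTau v (1 : F) ∈ Cfsg.Geo.subalgebraNormalizer K :=
      (hEq.symm ▸ spTau_mem v (1 : F) :
        spTau v (1 : F) ∈ Cfsg.Geo.subalgebraNormalizer K ⊓ Cfsg.spGL m F).1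
    have hk := (hmem a).1 haK
    obtain ⟨s, t, hst⟩ := hspan _ hk
    have hst' : ∀ x : Fin m ⊕ Fin m → F, a *ᵥ x + sympBil m F (a *ᵥ x) v • v =
        s • (x + sympBil m F x v • v) + t • (a *ᵥ x + sympBil m F x v • (a *ᵥ v)) := by
      intro x
      have h' := congrArg (fun A => A * (spTau v (1 : F) : Matrix (Fin m ⊕ Fin m) (Fin m ⊕ Fin m) F)) hst
      simp only [mul_assoc, Units.inv_mul, mul_one, add_mul, Matrix.smul_mul, one_mul] at h'
      have h'' := congrArg (fun A => A *ᵥ x) h'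
      simpa only [Matrix.add_mulVec, Matrix.smul_mulVec, ← Matrix.mulVec_mulVec,
        GeoClasses.spTau_apply, one_mul, Matrix.mulVec_add, Matrix.mulVec_smul] using h''
    have hind : ∀ (x : Fin m ⊕ Fin m → F) (p q : F), x ≠ 0 → p • x + q • Jo x = 0 → p = 0 ∧ q = 0 := by
      intro x p q hx hpq
      by_contra hne
      have hN := hJ.norm_ne (a := p) (b := q) (by tauto)
      have h3 := congrArg Jo hpq
      rw [map_add, map_smul, map_smul, hJ.sq, map_zero] at h3
      have h4 : (p * p - ν * (q * q)) • x = 0 := by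
        linear_combination (norm := module) p • hpq - q • h3
      exact hx ((smul_eq_zero.1 h4).resolve_left hN)
    obtain ⟨e, he, he0⟩ : ∃ e, (∀ x ∈ Submodule.span F ({v, Jo v} : Set (Fin m ⊕ Fin m → F)),
        sympBil m F x e = 0) ∧ e ≠ 0 := by
      by_contra hcon
      push Not at hcon
      have h1 : Module.finrank F (LinearMap.BilinForm.orthogonal (sympBil m F)
          (Submodule.span F ({v, Jo v} : Set (Fin m ⊕ Fin m → F)))) = _ :=
        LinearMap.BilinForm.finrank_orthogonal sympBil_nondegenerate _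
      rw [show LinearMap.BilinForm.orthogonal (sympBil m F)
        (Submodule.span F ({v, Jo v} : Set (Fin m ⊕ Fin m → F))) = ⊥ from
        (Submodule.eq_bot_iff _).2 fun e he => hcon e fun x hx => he x hx] at h1
      have h0 := finrank_span_finset_le_card (R := F) ({v, Jo v} : Finset (Fin m ⊕ Fin m → F))
      have h2 := Finset.card_le_two (a := v) (b := Jo v)
      have hV : Module.finrank F (Fin m ⊕ Fin m → F) = m + m := by simp
      unfold Set.finrank at h0
      rw [Finset.coe_pair] at h0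
      simp at h1
      omega
    have hev : sympBil m F e v = 0 := by
      rw [GeoClasses.spB_swap v e, he v (Submodule.subset_span (by simp)), neg_zero]
    have haev : sympBil m F (a *ᵥ e) v = 0 := by
      rw [← hJo, hJ.skew, GeoClasses.spB_swap (Jo v) e,
        he (Jo v) (Submodule.subset_span (by simp)), neg_zero, neg_zero]
    have h1 := hst' e
    rw [hev, haev] at h1
    obtain ⟨hs, ht⟩ := hind e s (t - 1) he0 (by
      rw [hJo]; linear_combination (norm := module) (-1 : F) • h1)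
    obtain ⟨x, hx⟩ : ∃ x, sympBil m F x v ≠ 0 := by
      by_contra hc
      push Not at hc
      exact hv (sympBil_nondegenerate.2 v hc)
    have h2' := hst' x
    rw [hs, sub_eq_zero.1 ht] at h2'
    exact hx (by
      have := (hind v (sympBil m F (a *ᵥ x) v) (- sympBil m F x v) hv (by
        rw [hJo]; linear_combination (norm := module) h2')).2
      exact neg_eq_zero.1 this)
  · by_cases hM : M ≤ Cfsg.Geo.subalgebraNormalizer K ⊓ Cfsg.spGL m F
    · exact Or.inl (le_antisymm hM hHM)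
    · obtain ⟨g, hgM, hgH⟩ := SetLike.not_le_iff_exists.1 hM
      have hO : Over Jo ν M :=
        ⟨hJ, hMS, fun h hh hc => hHM ⟨hnorm h 1 fun x => by rw [one_smul]; exact hc x, hh⟩⟩
      exact Or.inr (heq hO g hgM fun ⟨ε, _, hε⟩ => hgH ⟨hnorm g ε hε, hMS hgM⟩)

/-- The unitary overfield stabilisers are maximal in the symplectic group. -/
theorem spGL_overfield_maximal_three {F : Type*} [Field F] [Fintype F] {m : ℕ} (hm : 3 ≤ m) (hodd : Odd (Fintype.card F)) (K : Subalgebra F (Matrix (Fin m ⊕ Fin m) (Fin m ⊕ Fin m) F)) (hK : Cfsg.Geo.IsFieldSubalgebra 2 K) (hac : Cfsg.Geo.IsAdjointClosedFor (Cfsg.sympForm m F) K) (hnsa : ¬ Cfsg.Geo.IsSelfAdjointFor (Cfsg.sympForm m F) K) : Cfsg.Geo.IsMaximalIn (Cfsg.spGL m F) (Cfsg.Geo.subalgebraNormalizer K ⊓ Cfsg.spGL m F) :=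
  spGL_overfield_maximal_of_eq (by omega) (fun hO _ hg hout => Over3.eq_spGL hO hm hg hout)
    hodd K hK hac hnsa


end Cfsg.Agent.GeoLow
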