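import Cfsg.Agent.GeoLow.OverfieldThree

/-!
The normaliser of a skew quadratic overfield is maximal in the four-dimensional symplectic group
over a field of odd order at least five.
-/

set_option autoImplicit false

namespace Cfsg.Agent.GeoLow

open Matrix Module Cfsg Cfsg.Agent Cfsg.Agent.Forms Cfsg.Agent.ClassicalMax Cfsg.Agent.GeoClasses
open Cfsg.Agent.MaxSub.Overfield
open scoped MatrixGroups Matrix

variable {F : Type*} [Field F]

local notation "V" => (Fin 2 ⊕ Fin 2 → F)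
local notation "β" => sympBil 2 F
local notation "mat[" g "]" =>
  ((g : GL (Fin 2 ⊕ Fin 2) F) : Matrix (Fin 2 ⊕ Fin 2) (Fin 2 ⊕ Fin 2) F)

namespace Over2

/-- The quotient of the two sides of a braid relation twisted by commuting elements. -/
lemma braid_quot {G : Type*} [Group G] {A B C D : G} (hCA : Commute C A) (hCB : Commute C B)
    (hDA : Commute D A) (hDB : Commute D B) (hCD : Commute C D)
    (hbr : A * B * A = B * A * B) :
    A * C * (B * D) * (A * C) * (B * D * (A * C) * (B * D))⁻¹ = C * D⁻¹ := by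
  have l : A * C * (B * D) * (A * C) = A * B * A * (C * C * D) := by
    calc _ = A * (C * B) * D * A * C := by group
      _ = A * B * (C * (D * A)) * C := by rw [hCB.eq]; group
      _ = A * B * (C * A) * D * C := by rw [hDA.eq]; group
      _ = A * B * A * (C * (D * C)) := by rw [hCA.eq]; group
      _ = _ := by rw [← hCD.eq]; group
  have r : B * D * (A * C) * (B * D) = B * A * B * (C * D * D) := by
    calc _ = B * (D * A) * C * B * D := by group
      _ = B * A * (D * (C * B)) * D := by rw [hDA.eq]; group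
      _ = B * A * (D * B) * C * D := by rw [hCB.eq]; group
      _ = B * A * B * (D * C) * D := by rw [hDB.eq]; group
      _ = _ := by rw [← hCD.eq]; group
  rw [l, r, ← hbr]
  calc _ = A * B * A * (C * C * D * D⁻¹ * D⁻¹ * C⁻¹) * (A * B * A)⁻¹ := by group
    _ = A * B * A * (C * (C * D⁻¹) * C⁻¹) * (A * B * A)⁻¹ := by group
    _ = A * B * A * (C * D⁻¹) * (A * B * A)⁻¹ := by
      rw [((Commute.refl C).mul_right hCD.inv_right).eq]; group
    _ = C * D⁻¹ := by
      have h1 : Commute (A * B * A) (C * D⁻¹) :=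
        ((hCA.symm.mul_right hDA.symm.inv_right).mul_left
          (hCB.symm.mul_right hDB.symm.inv_right)).mul_left
          (hCA.symm.mul_right hDA.symm.inv_right)
      rw [h1.eq]; group

lemma spTau_inv (v : Fin 2 ⊕ Fin 2 → F) (c : F) : (spTau v c)⁻¹ = spTau v (-c) :=
  inv_eq_of_mul_eq_one_right (by rw [← spTau_add', add_neg_cancel, spTau_zero'])

section Str

variable {Jo : (Fin 2 ⊕ Fin 2 → F) →ₗ[F] (Fin 2 ⊕ Fin 2 → F)} {ν : F} (hJ : Str Jo ν)
include hJ

/-- Two orthogonal non-singular lines over the overfield, or a singular hyperbolic pair, span. -/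
lemma exists_coords {e f : V} (h0 : β e f = 0)
    (h : (β e (Jo e) ≠ 0 ∧ β f (Jo f) ≠ 0 ∧ β e (Jo f) = 0) ∨
      (β e (Jo e) = 0 ∧ β f (Jo f) = 0 ∧ β e (Jo f) ≠ 0)) (v : V) :
    ∃ p q r s : F, v = p • e + q • Jo e + (r • f + s • Jo f) := by
  have hli : LinearIndependent F ![e, Jo e, f, Jo f] := by
    rw [Fintype.linearIndependent_iff]
    intro c hc
    simp only [Fin.sum_univ_four, Matrix.cons_val] at hc
    have h0' : β f e = 0 := by rw [spB_swap e f, h0, neg_zero]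
    have e1 := congrArg (fun z => β z e) hc
    have e2 := congrArg (fun z => β z (Jo e)) hc
    have e3 := congrArg (fun z => β z f) hc
    have e4 := congrArg (fun z => β z (Jo f)) hc
    simp only [map_add, map_smul, LinearMap.add_apply, LinearMap.smul_apply, LinearMap.zero_apply,
      map_zero, smul_eq_mul, sympBil_isAlt.self_eq_zero, hJ.J_J, hJ.J_left, h0, h0',
      hJ.S_symm f e] at e1 e2 e3 e4
    rcases h with ⟨he, hf, hef⟩ | ⟨he, hf, hef⟩
    · simp [hef, he, hf] at e1 e2 e3 e4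
      intro i
      fin_cases i <;> assumption
    · simp [he, hf, hef] at e1 e2 e3 e4
      intro i
      fin_cases i <;> assumption
  have hv : v ∈ Submodule.span F (Set.range ![e, Jo e, f, Jo f]) := by
    rw [hli.span_eq_top_of_card_eq_finrank' (by simp)]
    trivial
  obtain ⟨c, hc⟩ := (Submodule.mem_span_range_iff_exists_fun F).1 hv
  refine ⟨c 0, c 1, c 2, c 3, hc.symm.trans ?_⟩
  simp only [Fin.sum_univ_four, Matrix.cons_val]
  abel

end Str

/-- A vector orthogonal to an isotropic pair lies in its span. -/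
lemma perp_mem {a b z : V} (hab : β a b = 0)
    (hind : ∀ r t : F, r • a + t • b = 0 → r = 0 ∧ t = 0) (ha : β a z = 0) (hb : β b z = 0) :
    z ∈ Submodule.span F {a, b} := by
  set L := Submodule.span F ({a, b} : Set V)
  have hL : 2 ≤ finrank F L :=
    two_le_of_indep (Submodule.subset_span (by simp)) (Submodule.subset_span (by simp)) hind
  have hperp : ∀ w, β a w = 0 → β b w = 0 → w ∈ LinearMap.BilinForm.orthogonal β L := by
    intro w h1 h2 x hx
    obtain ⟨r, t, rfl⟩ := Submodule.mem_span_pair.1 hx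
    show β (r • a + t • b) w = 0
    simp [h1, h2]
  have hle : L ≤ LinearMap.BilinForm.orthogonal β L := Submodule.span_le.2 (by
    rintro w (rfl | rfl)
    · exact hperp _ (sympBil_isAlt.self_eq_zero _) (by rw [spB_swap w b, hab, neg_zero])
    · exact hperp _ hab (sympBil_isAlt.self_eq_zero _))
  have hfin : finrank F ↥(LinearMap.BilinForm.orthogonal β L) = finrank F V - finrank F L :=
    LinearMap.BilinForm.finrank_orthogonal sympBil_nondegenerate _
  have hV : finrank F V = 4 := by simp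
  rw [Submodule.eq_of_le_of_finrank_le hle (by omega)]
  exact hperp z ha hb

variable {Jo : (Fin 2 ⊕ Fin 2 → F) →ₗ[F] (Fin 2 ⊕ Fin 2 → F)} {ν : F}
  {M : Subgroup (GL (Fin 2 ⊕ Fin 2) F)} (hO : Over Jo ν M)
include hO

/-- A scalar of norm one on a non-singular line over the overfield. -/
lemma exists_scalar {a : Fin 2 ⊕ Fin 2 → F} (ha : sympBil 2 F a (Jo a) ≠ 0) {e d : F}
    (hed : e * e - ν * (d * d) = 1) :
    ∃ k ∈ M, k ∈ Cfsg.spGL 2 F ∧ mat[k] *ᵥ a = e • a + d • Jo a ∧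
      ∀ x, β x a = 0 → β x (Jo a) = 0 → mat[k] *ᵥ x = x := by
  have hJ := hO.str
  obtain ⟨c, hc⟩ : ∃ c, c = β a (Jo a) := ⟨_, rfl⟩
  have hc0 : c ≠ 0 := hc ▸ ha
  let f : V →ₗ[F] V := LinearMap.id + ((e - 1) / c) • proj Jo a a + (d / c) • (Jo ∘ₗ proj Jo a a)
  have hf : ∀ x, f x = x + ((e - 1) / c) • proj Jo a a x + (d / c) • Jo (proj Jo a a x) :=
    fun x => rfl
  obtain ⟨k, hkM, hks, hk⟩ := exists_gl hO.commute f (fun x y => by
    simp only [hf, proj_apply, map_add, map_sub, map_smul, LinearMap.add_apply,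
      LinearMap.sub_apply, LinearMap.smul_apply, smul_eq_mul, hJ.J_J, hJ.J_left, hJ.sq, ← hc,
      sympBil_isAlt.self_eq_zero, spB_swap y a]
    field_simp
    linear_combination (β x a * β y (Jo a) - β x (Jo a) * β y a) * c * hed)
    (fun x => by
    simp only [hf, proj_apply, map_add, map_sub, map_smul, hJ.sq, hJ.J_J, hJ.skew x a]
    module)
  refine ⟨k, hkM, hks, ?_, fun x h1 h2 => ?_⟩
  · rw [hk, hf, proj_apply, sympBil_isAlt.self_eq_zero, ← hc, zero_smul, sub_zero, map_smul,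
      smul_smul, smul_smul, div_mul_cancel₀ _ hc0, div_mul_cancel₀ _ hc0]
    module
  · rw [hk, hf, proj_apply, h1, h2]
    simp

section finite

variable [Fintype F]

/-- Every non-singular vector of a root plane of an element outside is a centre. -/
lemma centre_of_nonsingular (h5 : 5 ≤ Fintype.card F) {a b : Fin 2 ⊕ Fin 2 → F}
    (hab : sympBil 2 F a b = 0) (hind : ∀ r t : F, r • a + t • b = 0 → r = 0 ∧ t = 0)
    (hgrp : ∀ t, pair a b t (-(ν * t)) ∈ M)
    (hnot : ¬ ∀ x ∈ Submodule.span F ({a, b} : Set (Fin 2 ⊕ Fin 2 → F)),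
      Jo x ∈ Submodule.span F ({a, b} : Set (Fin 2 ⊕ Fin 2 → F)))
    {ℓ : Fin 2 ⊕ Fin 2 → F} (hℓL : ℓ ∈ Submodule.span F ({a, b} : Set (Fin 2 ⊕ Fin 2 → F)))
    (hℓ : sympBil 2 F ℓ (Jo ℓ) ≠ 0) :
    ℓ ∈ spCentres M ∧ ∃ y ∈ Submodule.span F ({a, b} : Set (Fin 2 ⊕ Fin 2 → F)),
      sympBil 2 F y (Jo y) ≠ 0 ∧ sympBil 2 F ℓ y = 0 ∧ sympBil 2 F ℓ (Jo y) = 0 := by
  have hJ := hO.str
  set L := Submodule.span F ({a, b} : Set (Fin 2 ⊕ Fin 2 → F)) with hL
  obtain ⟨p, q, hpq⟩ := Submodule.mem_span_pair.1 hℓL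
  have hba : β b a = 0 := by rw [spB_swap a b, hab, neg_zero]
  have hp0 : p ≠ 0 ∨ q ≠ 0 := by
    by_contra h
    push Not at h
    exact hℓ (by rw [← hpq, h.1, h.2]; simp)
  obtain ⟨N, hN⟩ : ∃ N, N = q * q - ν * (p * p) := ⟨_, rfl⟩
  have hN0 : N ≠ 0 := hN ▸ hJ.norm_ne hp0.symm
  obtain ⟨a₁, ha₁⟩ : ∃ z, z = (-q) • a - (ν * p) • b := ⟨_, rfl⟩
  have hla : β ℓ a₁ = 0 := by simp [ha₁, ← hpq, hab, hba, sympBil_isAlt.self_eq_zero]
  have hal : β a₁ ℓ = 0 := by rw [spB_swap ℓ a₁, hla, neg_zero]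
  have hgrp' : ∀ s, pair a₁ ℓ s (-(ν * s)) ∈ M := fun s => by
    convert hgrp (N * s) using 1
    refine gl_ext_mulVec fun x => ?_
    rw [pair_apply hal, pair_apply hab, ha₁, ← hpq]
    simp only [map_add, map_sub, map_smul, smul_eq_mul, hN]
    module
  obtain ⟨c, hc⟩ : ∃ c, c = β ℓ (Jo ℓ) := ⟨_, rfl⟩
  obtain ⟨r, hr⟩ : ∃ r, r = β a₁ (Jo ℓ) / c := ⟨_, rfl⟩
  obtain ⟨y, hy⟩ : ∃ y, y = a₁ - r • ℓ := ⟨_, rfl⟩
  have hyl : β y ℓ = 0 := by simp [hy, hal, sympBil_isAlt.self_eq_zero]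
  have hly : β ℓ y = 0 := by rw [spB_swap y ℓ, hyl, neg_zero]
  have hyJl : β y (Jo ℓ) = 0 := by
    rw [hy, map_sub, map_smul, LinearMap.sub_apply, LinearMap.smul_apply, ← hc, smul_eq_mul, hr,
      div_mul_cancel₀ _ (hc ▸ hℓ), sub_self]
  have hlJy : β ℓ (Jo y) = 0 := by rw [hJ.S_symm]; exact hyJl
  have hyL : y ∈ L := by
    rw [hy, ha₁]
    exact L.sub_mem (L.sub_mem (L.smul_mem _ (Submodule.subset_span (by simp)))
      (L.smul_mem _ (Submodule.subset_span (by simp)))) (L.smul_mem _ hℓL)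
  have hind' : ∀ s t : F, s • ℓ + t • y = 0 → s = 0 ∧ t = 0 := by
    intro s t hst
    have h' : ((s - t * r) * p + t * (-q)) • a + ((s - t * r) * q - t * (ν * p)) • b = 0 := by
      rw [hy, ha₁, ← hpq] at hst
      linear_combination (norm := module) hst
    obtain ⟨e1, e2⟩ := hind _ _ h'
    have ht : t * N = 0 := by rw [hN]; linear_combination p * e2 - q * e1
    obtain rfl := (mul_eq_zero.1 ht).resolve_right hN0
    refine ⟨?_, rfl⟩
    rcases hp0 with h | h
    · exact (mul_eq_zero.1 (show s * p = 0 by linear_combination e1)).resolve_right h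
    · exact (mul_eq_zero.1 (show s * q = 0 by linear_combination e2)).resolve_right h
  have hLeq : Submodule.span F ({ℓ, y} : Set V) = L :=
    Submodule.eq_of_le_of_finrank_le (Submodule.span_le.2 (by
      rintro z (rfl | rfl)
      · exact hℓL
      · exact hyL)) ((finrank_pair_le a b).trans
        (two_le_of_indep (Submodule.subset_span (by simp)) (Submodule.subset_span (by simp)) hind'))
  have hy0 : β y (Jo y) ≠ 0 := by
    intro h
    have hyne : y ≠ 0 := fun h => one_ne_zero (hind' 0 1 (by simp [h])).2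
    have hJy : Jo y ∈ L := hLeq ▸ perp_mem hly hind' hlJy h
    have hK : Submodule.span F ({y, Jo y} : Set V) = L :=
      Submodule.eq_of_le_of_finrank_le (Submodule.span_le.2 (by
        rintro z (rfl | rfl)
        · exact hyL
        · exact hJy)) ((finrank_pair_le a b).trans
        (two_le_of_indep (Submodule.subset_span (by simp)) (Submodule.subset_span (by simp))
          fun s t hst => Str3.indep hJ hyne hst))
    refine hnot fun z hz => ?_
    obtain ⟨s, t, rfl⟩ := Submodule.mem_span_pair.1 (hK.ge hz)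
    rw [map_add, map_smul, map_smul, hJ.sq]
    exact L.add_mem (L.smul_mem _ hJy) (L.smul_mem _ (L.smul_mem _ hyL))
  refine ⟨?_, y, hyL, hy0, hly, hlJy⟩
  -- a second root plane through `ℓ`
  have hν1 : 1 - ν ≠ 0 := fun h => hJ.one_sub_ne (by linear_combination -h)
  obtain ⟨e, he⟩ : ∃ e, e = (1 + ν) / (1 - ν) := ⟨_, rfl⟩
  obtain ⟨d, hd⟩ : ∃ d, d = 2 / (1 - ν) := ⟨_, rfl⟩
  have hd0 : d ≠ 0 := hd ▸ div_ne_zero hJ.two hν1
  obtain ⟨k, hkM, hks, hky, hkfix⟩ := exists_scalar hO hy0 (e := e) (d := d) (by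
    rw [he, hd]; field_simp; ring)
  have hkl : mat[k] *ᵥ ℓ = ℓ := hkfix ℓ hly hlJy
  obtain ⟨b₀, hb₀⟩ : ∃ z, z = mat[k] *ᵥ a₁ := ⟨_, rfl⟩
  have hb₀' : b₀ = e • y + d • Jo y + r • ℓ := by
    rw [hb₀, show a₁ = y + r • ℓ by rw [hy]; abel, Matrix.mulVec_add, Matrix.mulVec_smul, hky, hkl]
  obtain ⟨w, hw⟩ : ∃ w, w = d * β y (Jo y) := ⟨_, rfl⟩
  have hw0 : w ≠ 0 := hw ▸ mul_ne_zero hd0 hy0
  have hab₀ : β a₁ b₀ = w := by
    rw [hb₀', show a₁ = y + r • ℓ by rw [hy]; abel, hw]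
    simp [hly, hyl, hlJy, sympBil_isAlt.self_eq_zero]
  have hb₀l : β b₀ ℓ = 0 := by
    rw [hb₀, ← hkl, GeoClasses.mem_spGL_iff.1 hks]; exact hal
  have hgrp₂ : ∀ s, pair b₀ ℓ s (-(ν * s)) ∈ M := fun s => by
    have := mul_mem (mul_mem hkM (hgrp' s)) (inv_mem hkM)
    rwa [conj_pair hks, ← hb₀, hkl] at this
  obtain ⟨ρ, hρ⟩ : ∃ ρ, ρ = ν / (w * w) := ⟨_, rfl⟩
  have hbraid : ∀ s : F, s ≠ 0 → spTau ℓ (-(ν * s) + ρ / s) ∈ M := by
    intro s hs
    have hxM := hgrp' s
    have hyM : spTau (w⁻¹ • b₀) s⁻¹ * spTau ℓ (-(ρ / s)) ∈ M := by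
      convert hgrp₂ (w⁻¹ * w⁻¹ * s⁻¹) using 1
      rw [pair, spTau_scale, hρ, div_eq_mul_inv, div_eq_mul_inv, mul_inv]
      congr 2
      ring
    have hb : β a₁ (w⁻¹ • b₀) = 1 := by
      rw [map_smul, hab₀, smul_eq_mul, inv_mul_cancel₀ hw0]
    have hlb : β ℓ (w⁻¹ • b₀) = 0 := by rw [map_smul, spB_swap b₀ ℓ, hb₀l]; simp
    have e := braid_quot (spTau_comm (F := F) hla (-(ν * s)) s)
      (spTau_comm (F := F) hlb (-(ν * s)) s⁻¹) (spTau_comm (F := F) hla (-(ρ / s)) s)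
      (spTau_comm (F := F) hlb (-(ρ / s)) s⁻¹)
      (spTau_comm (F := F) (sympBil_isAlt.self_eq_zero ℓ) (-(ν * s)) (-(ρ / s)))
      (spTau_braid hb (mul_inv_cancel₀ hs))
    rw [spTau_add', show spTau ℓ (ρ / s) = (spTau ℓ (-(ρ / s)))⁻¹ by rw [spTau_inv, neg_neg], ← e]
    exact mul_mem (mul_mem (mul_mem hxM hyM) hxM) (inv_mem (mul_mem (mul_mem hyM hxM) hyM))
  -- the values span the field
  obtain ⟨t, ht0, ht1, ht⟩ : ∃ t : F, t ≠ 0 ∧ 1 + t ≠ 0 ∧ 1 + t + t * t ≠ 0 := by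
    classical
    by_contra hcon
    push Not at hcon
    have hsub : ∀ u v : F, 1 + u + u * u = 0 → 1 + v + v * v = 0 → v = u ∨ v = -1 - u := by
      intro u v hu hv
      have : (v - u) * (v - (-1 - u)) = 0 := by linear_combination hv - hu
      rcases mul_eq_zero.1 this with h | h
      · exact Or.inl (sub_eq_zero.1 h)
      · exact Or.inr (sub_eq_zero.1 h)
    by_cases hex : ∃ u : F, 1 + u + u * u = 0
    · obtain ⟨u, hu⟩ := hex
      have h4 : Fintype.card F ≤ ({0, -1, u, -1 - u} : Finset F).card :=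
        Finset.card_le_card fun v _ => by
          by_cases h1 : v = 0
          · simp [h1]
          by_cases h2 : 1 + v = 0
          · simp [eq_neg_of_add_eq_zero_right h2]
          rcases hsub u v hu (hcon v h1 h2) with h | h <;> simp [h]
      have := Finset.card_le_four (a := (0 : F)) (b := -1) (c := u) (d := -1 - u)
      omega
    · push Not at hex
      exact hJ.two (by
        by_contra h
        exact hex 1 (hcon 1 one_ne_zero (by rwa [one_add_one_eq_two])))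
  intro cc
  rcases eq_or_ne cc 0 with rfl | hcc
  · rw [spTau_zero']; exact one_mem M
  obtain ⟨h, hh⟩ : ∃ h, h = ρ * ((1 + t + t * t) / (t * (1 + t))) := ⟨_, rfl⟩
  have hh0 : h ≠ 0 := hh ▸ mul_ne_zero (hρ ▸ div_ne_zero hJ.nu_ne (mul_ne_zero hw0 hw0))
    (div_ne_zero ht (mul_ne_zero ht0 ht1))
  obtain ⟨μ, hμ⟩ : ∃ μ, μ = h / cc := ⟨_, rfl⟩
  have hμ0 : μ ≠ 0 := hμ ▸ div_ne_zero hh0 hcc
  have hμt : μ * (1 + t) ≠ 0 := mul_ne_zero hμ0 ht1
  have key := mul_mem (mul_mem (hbraid μ hμ0) (hbraid (μ * t) (mul_ne_zero hμ0 ht0)))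
    (inv_mem (hbraid (μ * (1 + t)) hμt))
  rw [spTau_inv, ← spTau_add', ← spTau_add'] at key
  convert key using 2
  rw [show cc = h / μ by rw [hμ]; field_simp, hh]
  field_simp
  ring

/-- An element outside the normaliser forces everything. -/
theorem eq_spGL (h5 : 5 ≤ Fintype.card F) {g : GL (Fin 2 ⊕ Fin 2) F} (hg : g ∈ M)
    (hout : ¬ ∃ ε : F, (ε = 1 ∨ ε = -1) ∧ ∀ x, mat[g] *ᵥ Jo x = ε • Jo (mat[g] *ᵥ x)) :
    M = Cfsg.spGL 2 F := by
  have hJ := hO.str
  have hgs := hO.le hg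
  by_cases hall : ∀ v, β v (Jo v) = 0 →
      ∀ x ∈ Submodule.span F ({mat[g] *ᵥ Jo v, mat[g] *ᵥ v} : Set (Fin 2 ⊕ Fin 2 → F)),
        Jo x ∈ Submodule.span F ({mat[g] *ᵥ Jo v, mat[g] *ᵥ v} : Set (Fin 2 ⊕ Fin 2 → F))
  swap
  · obtain ⟨v, hv, hnot⟩ : ∃ v, β v (Jo v) = 0 ∧
        ¬ ∀ x ∈ Submodule.span F ({mat[g] *ᵥ Jo v, mat[g] *ᵥ v} : Set (Fin 2 ⊕ Fin 2 → F)),
          Jo x ∈ Submodule.span F ({mat[g] *ᵥ Jo v, mat[g] *ᵥ v} : Set (Fin 2 ⊕ Fin 2 → F)) := by
      by_contra h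
      exact hall fun v hv => by_contra fun h' => h ⟨v, hv, h'⟩
    obtain ⟨a, ha⟩ : ∃ z, z = mat[g] *ᵥ Jo v := ⟨_, rfl⟩
    obtain ⟨b, hb⟩ : ∃ z, z = mat[g] *ᵥ v := ⟨_, rfl⟩
    rw [← ha, ← hb] at hnot
    have hv0 : v ≠ 0 := fun h => hnot fun x hx => by
      rw [ha, hb, h, map_zero] at hx ⊢
      simp only [Matrix.mulVec_zero, Set.pair_eq_singleton, Submodule.span_zero_singleton,
        Submodule.mem_bot] at hx ⊢
      rw [hx, map_zero]
    have hab : β a b = 0 := by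
      rw [ha, hb, GeoClasses.mem_spGL_iff.1 hgs, hJ.J_left, hv, neg_zero]
    have hind : ∀ r t : F, r • a + t • b = 0 → r = 0 ∧ t = 0 := fun r t hrt => by
      rw [ha, hb, ← Matrix.mulVec_smul, ← Matrix.mulVec_smul, ← Matrix.mulVec_add,
        ← Matrix.mulVec_zero (A := mat[g])] at hrt
      have h0 := GeoClasses.mulVec_injective g hrt
      exact (Str3.indep hJ hv0 (by rw [add_comm]; exact h0)).symm
    have hgrp : ∀ t, pair a b t (-(ν * t)) ∈ M := fun t => by
      have := mul_mem (mul_mem hg (hO.root_mem hv t)) (inv_mem hg)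
      rwa [conj_pair hgs, ← ha, ← hb] at this
    set L := Submodule.span F ({a, b} : Set (Fin 2 ⊕ Fin 2 → F)) with hL
    have hcen := fun {ℓ : V} => centre_of_nonsingular hO h5 hab hind hgrp hnot (ℓ := ℓ)
    obtain ⟨ℓ, hℓL, hℓ⟩ : ∃ ℓ ∈ L, β ℓ (Jo ℓ) ≠ 0 := by
      by_contra hcon
      push Not at hcon
      have hS : ∀ x ∈ L, ∀ y ∈ L, β x (Jo y) = 0 := fun x hx y hy => by
        have h := hcon (x + (1 : F) • y) (L.add_mem hx (L.smul_mem 1 hy))
        rw [hJ.expand, hcon x hx, hcon y hy] at h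
        exact (mul_eq_zero.1 (show (2 : F) * β x (Jo y) = 0 by linear_combination h)).resolve_left
          hJ.two
      exact hnot fun x hx => perp_mem hab hind (hS a (Submodule.subset_span (by simp)) x hx)
        (hS b (Submodule.subset_span (by simp)) x hx)
    obtain ⟨hlc, y, hyL, hy, hly, hlJy⟩ := hcen hℓL hℓ
    have hyc := (hcen hyL hy).1
    obtain ⟨t, ht0, ht⟩ : ∃ t : F, t ≠ 0 ∧ β ℓ (Jo ℓ) + t * t * β y (Jo y) ≠ 0 := by
      classical
      by_contra hcon
      push Not at hcon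
      have h1 := hcon 1 one_ne_zero
      have h3 : Fintype.card F ≤ ({0, 1, -1} : Finset F).card := Finset.card_le_card fun x _ => by
        by_cases hx0 : x = 0
        · simp [hx0]
        have h2 : (x - 1) * (x + 1) = 0 := mul_right_cancel₀ hy (by
          rw [zero_mul]; linear_combination hcon x hx0 - h1)
        rcases mul_eq_zero.1 h2 with h | h
        · simp [sub_eq_zero.1 h]
        · simp [eq_neg_of_add_eq_zero_left h]
      have := Finset.card_le_three (a := (0 : F)) (b := 1) (c := -1)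
      omega
    have hzc : ℓ + t • y ∈ spCentres M := (hcen (L.add_mem hℓL (L.smul_mem t hyL)) (by
      rw [hJ.expand, hlJy, mul_zero, add_zero]; exact ht)).1
    -- lines over the overfield of centres
    have hν1 : 1 - ν ≠ 0 := fun h => hJ.one_sub_ne (by linear_combination -h)
    have hline : ∀ z : V, β z (Jo z) ≠ 0 → z ∈ spCentres M →
        ∀ p q : F, p • z + q • Jo z ∈ spCentres M := by
      intro z hz hzc p q
      obtain ⟨k, hkM, hks, hkz, -⟩ := exists_scalar hO hz (e := (1 + ν) / (1 - ν))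
        (d := 2 / (1 - ν)) (by field_simp; ring)
      have hc' := mulVec_mem_spCentres hzc hkM hks
      rw [hkz] at hc'
      have hne : (2 : F) / (1 - ν) ≠ 0 := div_ne_zero hJ.two hν1
      convert plane_mem_spCentres hzc hc' (by
        simpa [sympBil_isAlt.self_eq_zero] using mul_ne_zero hne hz)
        (p - (q / (2 / (1 - ν))) * ((1 + ν) / (1 - ν))) (q / (2 / (1 - ν))) using 1
      rw [smul_add, smul_smul, smul_smul, div_mul_cancel₀ _ hne]
      module
    have hKl := hline ℓ hℓ hlc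
    have hKy := hline y hy hyc
    -- moving one component
    have hmove : ∀ (z u : V) (p q : F), β z (Jo z) ≠ 0 →
        (∀ p' q' : F, p' • z + q' • Jo z ∈ spCentres M) → β z u = 0 → β (Jo z) u = 0 →
        z + u ∈ spCentres M → (p ≠ 0 ∨ q ≠ 0) → p • z + q • Jo z + u ∈ spCentres M := by
      intro z u p q hz hK hzu hJzu hc hpq
      have step : ∀ p₀ q₀ p₁ q₁ : F, p₀ * q₁ - q₀ * p₁ ≠ 0 →
          p₀ • z + q₀ • Jo z + u ∈ spCentres M → p₁ • z + q₁ • Jo z + u ∈ spCentres M := by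
        intro p₀ q₀ p₁ q₁ hdet h0
        obtain ⟨w, hw⟩ : ∃ w, w = (p₁ - p₀) • z + (q₁ - q₀) • Jo z := ⟨_, rfl⟩
        have huz : β u z = 0 := by rw [spB_swap z u, hzu, neg_zero]
        have huJz : β u (Jo z) = 0 := by rw [spB_swap (Jo z) u, hJzu, neg_zero]
        have e : β (p₀ • z + q₀ • Jo z + u) w = (p₀ * q₁ - q₀ * p₁) * β z (Jo z) := by
          simp only [hw, map_add, map_smul, LinearMap.add_apply, LinearMap.smul_apply, smul_eq_mul,
            sympBil_isAlt.self_eq_zero, huz, huJz, spB_swap z (Jo z)]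
          ring
        have := mulVec_mem_spCentres h0 (hK (p₁ - p₀) (q₁ - q₀)
          ((p₀ * q₁ - q₀ * p₁) * β z (Jo z))⁻¹) (spTau_mem _ _)
        rw [spTau_apply, ← hw, e, inv_mul_cancel₀ (mul_ne_zero hdet hz), one_smul] at this
        convert this using 1
        rw [hw]; module
      by_cases hq : q = 0
      · refine step 0 1 p q (by simpa [hq] using hpq) (step 1 0 0 1 (by simp) ?_)
        simpa using hc
      · exact step 1 0 p q (by simpa using hq) (by simpa using hc)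
    refine le_antisymm hO.le (spGL_le_of_spTau_mem fun v c => ?_)
    obtain ⟨p, q, r, s, rfl⟩ := exists_coords hJ hly (Or.inl ⟨hℓ, hy, hlJy⟩) v
    refine (show p • ℓ + q • Jo ℓ + (r • y + s • Jo y) ∈ spCentres M from ?_) c
    by_cases hrs : r = 0 ∧ s = 0
    · simpa [hrs.1, hrs.2] using hKl p q
    by_cases hpq : p = 0 ∧ q = 0
    · simpa [hpq.1, hpq.2] using hKy r s
    have hJl_y : β (Jo ℓ) y = 0 := by rw [hJ.skew, hlJy, neg_zero]
    have h1 : p • ℓ + q • Jo ℓ + t • y ∈ spCentres M :=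
      hmove ℓ (t • y) p q hℓ hKl (by simp [hly]) (by simp [hJl_y]) hzc (by tauto)
    have hyl : β y ℓ = 0 := by rw [spB_swap ℓ y, hly, neg_zero]
    have hyJl : β y (Jo ℓ) = 0 := by rw [hJ.S_symm]; exact hlJy
    have hJy_l : β (Jo y) ℓ = 0 := by rw [hJ.skew, hyJl, neg_zero]
    have hJyJl : β (Jo y) (Jo ℓ) = 0 := by rw [hJ.J_J, hyl, mul_zero]
    have hty : β (t • y) (Jo (t • y)) ≠ 0 := by simpa using mul_ne_zero ht0 (mul_ne_zero ht0 hy)
    have h2 := hmove (t • y) (p • ℓ + q • Jo ℓ) (r / t) (s / t) hty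
      (fun p' q' => by simpa [smul_smul] using hKy (p' * t) (q' * t))
      (by simp [hyl, hyJl]) (by simp [hJy_l, hJyJl])
      (by rwa [add_comm]) (by rw [← not_and_or]; simpa [ht0] using hrs)
    rw [map_smul, smul_smul, smul_smul, div_mul_cancel₀ _ ht0, div_mul_cancel₀ _ ht0] at h2
    rwa [add_comm]
  exfalso
  let T : V →ₗ[F] V := Matrix.toLin' mat[g⁻¹] ∘ₗ Jo ∘ₗ Matrix.toLin' mat[g]
  have hTap : ∀ v, mat[g] *ᵥ T v = Jo (mat[g] *ᵥ v) := fun v => by
    show mat[g] *ᵥ (mat[g⁻¹] *ᵥ Jo (mat[g] *ᵥ v)) = _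
    rw [mulVec_inv_cancel]
  have hTline : ∀ v, β v (Jo v) = 0 → ∃ a b : F, T v = a • v + b • Jo v := fun v hv => by
    obtain ⟨s, t, hst⟩ := Submodule.mem_span_pair.1
      (hall v hv _ (Submodule.subset_span (by simp : mat[g] *ᵥ v ∈ _)))
    refine ⟨t, s, GeoClasses.mulVec_injective g ?_⟩
    show mat[g] *ᵥ T v = mat[g] *ᵥ _
    rw [hTap, ← hst, Matrix.mulVec_add, Matrix.mulVec_smul, Matrix.mulVec_smul]
    abel
  have hTT : ∀ v, T (T v) = ν • v := fun v => by
    refine GeoClasses.mulVec_injective g ?_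
    show mat[g] *ᵥ T (T v) = mat[g] *ᵥ (ν • v)
    rw [hTap, hTap, hJ.sq, Matrix.mulVec_smul]
  have hTskew : ∀ x y, β (T x) y = - β x (T y) := fun x y => by
    have h1 := GeoClasses.mem_spGL_iff.1 hgs (T x) y
    have h2 := GeoClasses.mem_spGL_iff.1 hgs x (T y)
    rw [hTap] at h1 h2
    rw [← h1, ← h2, hJ.skew]
  obtain ⟨e, he0, he⟩ := Str3.exists_singular hJ (le_refl 2)
  obtain ⟨f, hf, hef, hef1, -, -⟩ := hJ.exists_partner (c := 0) he0 he
    (fun a b h => he0 (by simpa using h)) (by simp) (by simp)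
  have hfe : β f e = 0 := by rw [spB_swap e f, hef, neg_zero]
  have hfJe : β f (Jo e) = 1 := by rw [hJ.S_symm]; exact hef1
  have hcoord := fun v => exists_coords hJ hef (Or.inr ⟨he, hf, by rw [hef1]; exact one_ne_zero⟩) v
  have hJeq : β (Jo e) (Jo (Jo e)) = 0 := by simp [hJ.sq, hJ.J_left, he]
  have hJfq : β (Jo f) (Jo (Jo f)) = 0 := by simp [hJ.sq, hJ.J_left, hf]
  have huniq : ∀ p q r s : F, p • e + q • Jo e + (r • f + s • Jo f) = 0 →
      p = 0 ∧ q = 0 ∧ r = 0 ∧ s = 0 := by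
    intro p q r s h
    have e1 := congrArg (fun z => β z (Jo f)) h
    have e2 := congrArg (fun z => β z f) h
    have e3 := congrArg (fun z => β z (Jo e)) h
    have e4 := congrArg (fun z => β z e) h
    simp [hJ.J_J, hJ.J_left, he, hf, hef, hfe, hef1, hfJe, sympBil_isAlt.self_eq_zero]
      at e1 e2 e3 e4
    exact ⟨e1, e2, e3, e4⟩
  obtain ⟨a, b, hTe⟩ := hTline e he
  obtain ⟨a', b', hTJe⟩ := hTline _ hJeq
  obtain ⟨c, d, hTf⟩ := hTline f hf
  obtain ⟨c', d', hTJf⟩ := hTline _ hJfq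
  rw [hJ.sq] at hTJe hTJf
  have hkey1 : c' = a ∧ d' = b := by
    obtain ⟨α, γ, h⟩ := hTline (e + Jo f) (by
      have := hJ.expand e (Jo f) 1
      rw [one_smul] at this
      rw [this, hJfq, he, hJ.sq, map_smul, hef, smul_zero]; ring)
    rw [map_add, hTe, hTJf, map_add, hJ.sq] at h
    obtain ⟨k1, k2, k3, k4⟩ := huniq (a - α) (b - γ) ((d' - γ) * ν) (c' - α)
      (by linear_combination (norm := module) h)
    exact ⟨by linear_combination k4 - k1,
      by linear_combination (mul_eq_zero.1 k3).resolve_right hJ.nu_ne - k2⟩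
  have hkey2 : c = a' ∧ d = b' := by
    obtain ⟨α, γ, h⟩ := hTline (Jo e + f) (by
      have := hJ.expand (Jo e) f 1
      rw [one_smul] at this
      rw [this, hJeq, hf, hJ.J_J, hef]; ring)
    rw [map_add, hTJe, hTf, map_add, hJ.sq] at h
    obtain ⟨k1, k2, k3, k4⟩ := huniq ((b' - γ) * ν) (a' - α) (c - α) (d - γ)
      (by linear_combination (norm := module) h)
    exact ⟨by linear_combination k3 - k2,
      by linear_combination k4 - (mul_eq_zero.1 k1).resolve_right hJ.nu_ne⟩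
  rw [hkey1.1, hkey1.2] at hTJf
  rw [hkey2.1, hkey2.2] at hTf
  have ha : a = 0 := by
    have h := hTskew e (Jo f)
    rw [hTe, hTJf] at h
    simp [hJ.J_J, hef, hef1] at h
    exact (mul_eq_zero.1 (show (2 : F) * a = 0 by linear_combination h)).resolve_left hJ.two
  have hbb : b' = b := by
    have h := hTskew e f
    rw [hTe, hTf] at h
    simp [hJ.J_left, hef, hef1, hfJe] at h
    exact h.symm
  obtain ⟨k1, k2, -, -⟩ := huniq ((b * b - 1) * ν) (b * a') 0 0 (by
    have h := hTT e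
    rw [hTe, ha, zero_smul, zero_add, map_smul, hTJe, hbb] at h
    linear_combination (norm := module) h)
  have hb : b * b = 1 := sub_eq_zero.1 ((mul_eq_zero.1 k1).resolve_right hJ.nu_ne)
  have ha' : a' = 0 := (mul_eq_zero.1 k2).resolve_left fun h => by
    rw [h] at hb; exact zero_ne_one (by linear_combination hb)
  have hTJ : ∀ v, T v = b • Jo v := fun v => by
    obtain ⟨p, q, r, s, rfl⟩ := hcoord v
    simp only [map_add, map_smul, hTe, hTJe, hTf, hTJf, ha, ha', hbb, hJ.sq]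
    module
  apply hout
  refine ⟨b, mul_self_eq_one_iff.1 hb, fun x => ?_⟩
  have h5 := hTap x
  rw [hTJ, Matrix.mulVec_smul] at h5
  rw [← h5, smul_smul, hb, one_smul]

end finite

end Over2

/-- The unitary overfield stabilisers are maximal in the four-dimensional symplectic group. -/
theorem spGL_overfield_maximal_two [Fintype F] (hodd : Odd (Fintype.card F))
    (h5 : 5 ≤ Fintype.card F)
    (K : Subalgebra F (Matrix (Fin 2 ⊕ Fin 2) (Fin 2 ⊕ Fin 2) F))
    (hK : Cfsg.Geo.IsFieldSubalgebra 2 K)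
    (hac : Cfsg.Geo.IsAdjointClosedFor (Cfsg.sympForm 2 F) K)
    (hnsa : ¬ Cfsg.Geo.IsSelfAdjointFor (Cfsg.sympForm 2 F) K) :
    Cfsg.Geo.IsMaximalIn (Cfsg.spGL 2 F)
      (Cfsg.Geo.subalgebraNormalizer K ⊓ Cfsg.spGL 2 F) :=
  spGL_overfield_maximal_of_eq (le_refl 2) (fun hO _ hg hout => Over2.eq_spGL hO h5 hg hout)
    hodd K hK hac hnsa

end Cfsg.Agent.GeoLow
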