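import Cfsg.Agent.GeoClasses.SympMax
import Cfsg.Agent.GeoClasses.OrthMaxBase
import Cfsg.Agent.GeoClasses.FieldFacts

/-!
In characteristic two the isometry group of a quadratic form is maximal in the symplectic group,
for every dimension at least four (reflections only).
-/

set_option autoImplicit false

namespace Cfsg.Agent.GeoLow

open Matrix Cfsg.Agent.GeoClasses Cfsg.Geo Cfsg.Agent.Forms Cfsg.Agent.ClassicalMax Module
open Cfsg.Agent.Classical (qf_add)
open scoped MatrixGroups Matrix

universe u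

variable {F : Type u} [Field F] [Fintype F] {m : ℕ}

local notation "V" => (Fin m ⊕ Fin m → F)

lemma two_smul_eq_zero (a : V) (h2 : (2 : F) = 0) : a + a = 0 := by
  rw [← two_smul F a, h2, zero_smul]

lemma finrank_perp_pair (u r : V) :
    m + m ≤ finrank F ↥(LinearMap.BilinForm.orthogonal (sympBil m F)
      (Submodule.span F ({u, r} : Set V))) + 2 ∧
    finrank F (Submodule.span F ({u, r} : Set V)) ≤ 2 := by
  have h1 : finrank F ↥(LinearMap.BilinForm.orthogonal (sympBil m F)
      (Submodule.span F ({u, r} : Set V))) =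
      finrank F V - finrank F (Submodule.span F ({u, r} : Set V)) :=
    LinearMap.BilinForm.finrank_orthogonal sympBil_nondegenerate _
  have h3 : finrank F (Submodule.span F ({u, r} : Set V)) ≤ 2 := by
    classical
    have h0 := finrank_span_finset_le_card (R := F) ({u, r} : Finset V)
    have := Finset.card_le_two (a := u) (b := r)
    unfold Set.finrank at h0
    rw [Finset.coe_pair] at h0
    omega
  have hV : finrank F V = m + m := by simp
  exact ⟨by omega, h3⟩

/-- A hyperbolic pair has a non-singular vector orthogonal to both. -/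
lemma exists_perp_ne_zero {Q : V → F}
    (hpol : ∀ u v, QuadraticMap.polar Q u v = Cfsg.sympForm m F u v) (hm : 2 ≤ m)
    {u r : V} (hur : Cfsg.sympForm m F r u ≠ 0) :
    ∃ y, (Cfsg.sympForm m F y u = 0 ∧ Cfsg.sympForm m F y r = 0) ∧ Q y ≠ 0 := by
  by_contra hcon
  push Not at hcon
  set W := LinearMap.BilinForm.orthogonal (sympBil m F) (Submodule.span F ({u, r} : Set V)) with hW
  have hmem : ∀ y ∈ W, Cfsg.sympForm m F y u = 0 ∧ Cfsg.sympForm m F y r = 0 := by
    intro y hy
    constructor <;> rw [Forms.sympForm_swap, neg_eq_zero, ← sympBil_apply] <;>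
      exact hy _ (Submodule.subset_span (by simp))
  have hQ0 : ∀ y ∈ W, Q y = 0 := fun y hy => hcon y (hmem y hy)
  have hperp : W ≤ LinearMap.BilinForm.orthogonal (sympBil m F) W := by
    intro y hy x hx
    show sympBil m F x y = 0
    rw [sympBil_apply, ← hpol]
    simp only [QuadraticMap.polar, hQ0 _ (add_mem hx hy), hQ0 x hx, hQ0 y hy, sub_zero]
  have hWo : LinearMap.BilinForm.orthogonal (sympBil m F) W = Submodule.span F ({u, r} : Set V) := by
    rw [hW, LinearMap.BilinForm.orthogonal_orthogonal sympBil_nondegenerate spB_isRefl]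
  obtain ⟨h1, h3⟩ := finrank_perp_pair u r
  rw [← hW] at h1
  have heq : W = Submodule.span F ({u, r} : Set V) :=
    Submodule.eq_of_le_of_finrank_le (hWo ▸ hperp) (by omega)
  have hu : u ∈ W := heq ▸ Submodule.subset_span (by simp)
  exact hur (by rw [Forms.sympForm_swap, (hmem u hu).2, neg_zero])

/-- A vector non-orthogonal to two orthogonal vectors may be shifted to a non-singular one. -/
lemma exists_shift {Q : V → F} (hQ : IsNondegenerateQuadraticForm Q)
    (hpol : ∀ u v, QuadraticMap.polar Q u v = Cfsg.sympForm m F u v) (hm : 2 ≤ m)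
    (hsize : 3 ≤ m ∨ 3 ≤ Fintype.card F) {w z x : V} (hwz : Cfsg.sympForm m F w z = 0)
    (hxw : Cfsg.sympForm m F x w ≠ 0) (hxz : Cfsg.sympForm m F x z ≠ 0) :
    ∃ x, Q x ≠ 0 ∧ Cfsg.sympForm m F x w ≠ 0 ∧ Cfsg.sympForm m F x z ≠ 0 := by
  by_contra hcon
  push Not at hcon
  set W := LinearMap.BilinForm.orthogonal (sympBil m F) (Submodule.span F ({w, z} : Set V)) with hW
  have hQd : ∀ d ∈ W, Q x + Q d + Cfsg.sympForm m F x d = 0 := by
    intro d hd
    have hdw : sympBil m F d w = 0 := by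
      rw [spB_swap w d, show sympBil m F w d = 0 from hd w (Submodule.subset_span (by simp)), neg_zero]
    have hdz : sympBil m F d z = 0 := by
      rw [spB_swap z d, show sympBil m F z d = 0 from hd z (Submodule.subset_span (by simp)), neg_zero]
    have h0 : Q (x + d) = 0 := by
      by_contra h0
      refine hxz ?_
      have := hcon (x + d) h0 (by
        rw [← sympBil_apply, map_add, LinearMap.add_apply, hdw, add_zero, sympBil_apply]; exact hxw)
      rwa [← sympBil_apply, map_add, LinearMap.add_apply, hdz, add_zero, sympBil_apply] at this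
    rw [← hpol, QuadraticMap.polar, h0]
    ring
  have hx0 : Q x = 0 := by
    by_contra h0
    exact hxz (hcon x h0 hxw)
  simp only [hx0, zero_add] at hQd
  have hperp : ∀ d ∈ W, ∀ d' ∈ W, Cfsg.sympForm m F d d' = 0 := by
    intro d hd d' hd'
    have h1 := hQd _ (add_mem hd hd')
    rw [← sympBil_apply, map_add, sympBil_apply, sympBil_apply] at h1
    rw [← hpol, QuadraticMap.polar]
    linear_combination h1 - hQd d hd - hQd d' hd'
  have hWo : LinearMap.BilinForm.orthogonal (sympBil m F) W = Submodule.span F ({w, z} : Set V) := by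
    rw [hW, LinearMap.BilinForm.orthogonal_orthogonal sympBil_nondegenerate spB_isRefl]
  have hle : W ≤ LinearMap.BilinForm.orthogonal (sympBil m F) W := fun d hd e he => by
    show sympBil m F e d = 0
    rw [sympBil_apply]; exact hperp e he d hd
  have h4 := Submodule.finrank_mono hle
  obtain ⟨h1, h3⟩ := finrank_perp_pair w z
  rw [← hW] at h1
  rw [hWo] at h4
  rcases hsize with hsize | hsize
  · omega
  obtain ⟨c, hc0, hc1⟩ : ∃ c : F, c ≠ 0 ∧ c ≠ 1 := by
    classical
    obtain ⟨c, -, hc⟩ := Finset.exists_mem_notMem_of_card_lt_card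
      (s := ({0, 1} : Finset F)) (t := Finset.univ)
      (lt_of_le_of_lt (Finset.card_le_two) (by rw [Finset.card_univ]; omega))
    simp only [Finset.mem_insert, Finset.mem_singleton, not_or] at hc
    exact ⟨c, hc.1, hc.2⟩
  have hxW : ∀ d ∈ W, Cfsg.sympForm m F x d = 0 := by
    intro d hd
    have h1 := hQd _ (W.smul_mem c hd)
    rw [hQ.smul, ← sympBil_apply, map_smul, sympBil_apply, smul_eq_mul] at h1
    have h5 : (c ^ 2 - c) * Cfsg.sympForm m F x d = 0 := by linear_combination c ^ 2 * hQd d hd - h1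
    refine (mul_eq_zero.1 h5).resolve_left fun h => ?_
    rcases mul_eq_zero.1 (show c * (c - 1) = 0 by linear_combination h) with h | h
    · exact hc0 h
    · exact hc1 (by linear_combination h)
  have hxS : x ∈ Submodule.span F ({w, z} : Set V) := hWo ▸ fun d hd => by
    show sympBil m F d x = 0
    rw [spB_swap x d, sympBil_apply, hxW d hd, neg_zero]
  obtain ⟨a, b, rfl⟩ := Submodule.mem_span_pair.1 hxS
  apply hxw
  rw [← sympBil_apply, map_add, map_smul, map_smul, LinearMap.add_apply, LinearMap.smul_apply,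
    LinearMap.smul_apply, sympBil_isAlt.self_eq_zero, sympBil_apply, Forms.sympForm_swap, hwz]
  simp

/-- The isometry group of a quadratic form polarising to the alternating form is maximal. -/
theorem spGL_quad_maximal (hm : 2 ≤ m) (hsize : 3 ≤ m ∨ 3 ≤ Fintype.card F) (heven : ¬ Odd (Fintype.card F)) {Q : V → F}
    (hQ : IsNondegenerateQuadraticForm Q)
    (hpol : ∀ u v, QuadraticMap.polar Q u v = Cfsg.sympForm m F u v) :
    IsMaximalIn (Cfsg.spGL m F) (quadSimilarityGroup Q ⊓ Cfsg.spGL m F) := by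
  have h2 : (2 : F) = 0 := by
    by_contra h
    exact heven ((two_ne_zero_iff_odd_card (F := F)).1 h)
  haveI : CharP F 2 := CharTwo.of_one_ne_zero_of_two_eq_zero one_ne_zero h2
  have hadd : ∀ x : F, x + x = 0 := CharTwo.add_self_eq_zero
  have hsqrt : ∀ c : F, ∃ s, s * s = c := fun c => by
    obtain ⟨s, hs⟩ := FiniteField.isSquare_of_char_two (ringChar.eq F 2) c
    exact ⟨s, hs.symm⟩
  set Qf := toQF hQ with hQfdef
  have hQf : ∀ v, Qf v = Q v := fun v => rfl
  have hB := bNondeg_toQF hQ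
  have hp : ∀ u v, QuadraticMap.polar Qf u v = Cfsg.sympForm m F u v := hpol
  have hV : finrank F V = m + m := by simp
  refine ⟨lt_of_le_not_ge inf_le_right fun hle =>
    spGL_not_le_quadSimilarityGroup (by omega) hpol (hle.trans inf_le_left), fun M hM hMK => ?_⟩
  by_cases hMW : M ≤ quadSimilarityGroup Q
  · exact Or.inl (le_antisymm (le_inf hMW hMK) hM)
  refine Or.inr (le_antisymm hMK ?_)
  have hQτ : ∀ (v : V) (c : F) (x : V),
      Q ((spTau v c : Matrix (Fin m ⊕ Fin m) (Fin m ⊕ Fin m) F) *ᵥ x) =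
        Q x + c * Cfsg.sympForm m F x v ^ 2 * (c * Q v + 1) := by
    intro v c x
    rw [spTau_mulVec, ← hQf, qf_add, QuadraticMap.map_smul, QuadraticMap.polar_smul_right, hp,
      hQf, hQf, smul_eq_mul, smul_eq_mul]
    ring
  set S : Set V := {w | spTau w 1 ∈ M} with hS
  have hone : ∀ w, Q w = 1 → w ∈ S := fun w hw => hM ⟨⟨1, fun x => by
    rw [hQτ, hw, one_mul, one_mul, Units.val_one, one_mul, hadd, mul_zero, add_zero]⟩, spTau_mem _ _⟩
  have hinv : ∀ g ∈ M, ∀ w ∈ S, (g : Matrix (Fin m ⊕ Fin m) (Fin m ⊕ Fin m) F) *ᵥ w ∈ S := by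
    intro g hg w hw
    show spTau ((g : Matrix (Fin m ⊕ Fin m) (Fin m ⊕ Fin m) F) *ᵥ w) 1 ∈ M
    convert mul_mem (mul_mem hg hw) (inv_mem hg) using 1
    refine gl_ext_mulVec fun x => ?_
    have := mem_spGL_iff.1 (hMK hg) (((g⁻¹ : GL (Fin m ⊕ Fin m) F) : Matrix _ _ F) *ᵥ x) w
    rw [mulVec_inv_cancel] at this
    simp only [Units.val_mul, ← Matrix.mulVec_mulVec, spTau_apply, Matrix.mulVec_add,
      Matrix.mulVec_smul, mulVec_inv_cancel, this]
  obtain ⟨g, hgM, hgW⟩ := SetLike.not_le_iff_exists.1 hMW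
  set G : Matrix (Fin m ⊕ Fin m) (Fin m ⊕ Fin m) F := ↑g with hG
  obtain ⟨v, hv, hgv⟩ : ∃ v, Q v ≠ 0 ∧ Q (G *ᵥ v) ≠ Q v := by
    by_contra hcon
    push Not at hcon
    refine hgW ⟨1, fun v => ?_⟩
    rw [Units.val_one, one_mul]
    by_cases hv : Q v = 0
    · rw [hv]
      by_contra hgv
      let φ : {v : V // Q v ≠ 0} → {v : V // Q v ≠ 0} := fun z =>
        ⟨G *ᵥ z.1, by rw [hcon z.1 z.2]; exact z.2⟩
      have hφ : Function.Surjective φ := Finite.surjective_of_injective fun a b h =>
        Subtype.ext (mulVec_injective g (congrArg Subtype.val h))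
      obtain ⟨z, hz⟩ := hφ ⟨G *ᵥ v, hgv⟩
      exact z.2 (by rw [mulVec_injective g (congrArg Subtype.val hz)]; exact hv)
    · exact hcon v hv
  obtain ⟨s, hs⟩ := hsqrt (Q v)⁻¹
  have hQs : ∀ x, Q (s • x) = (Q v)⁻¹ * Q x := fun x => by rw [hQ.smul, pow_two, hs]
  set u := G *ᵥ (s • v) with hu
  have huS : u ∈ S := hinv g hgM _ (hone _ (by rw [hQs, inv_mul_cancel₀ hv]))
  have hu1 : Q u ≠ 1 := by
    rw [hu, Matrix.mulVec_smul, hQs]
    intro h
    exact hgv (by rwa [inv_mul_eq_one₀ hv, eq_comm] at h)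
  have hu0 : u ≠ 0 := fun h => by
    have : s • v = 0 := mulVec_injective g (show G *ᵥ (s • v) = G *ᵥ 0 by
      rw [Matrix.mulVec_zero]; exact h)
    have := congrArg Q this
    rw [hQs, inv_mul_cancel₀ hv, ← hQf, map_zero] at this
    exact one_ne_zero this
  -- every value is taken on `S`
  have hval : ∀ r : F, ∃ w ∈ S, w ≠ 0 ∧ Q w = r := by
    intro r
    obtain ⟨t, ht⟩ := hsqrt ((r + 1) / (Q u + 1))
    obtain ⟨r₀, hr₀⟩ := exists_sympForm_ne_zero hu0
    obtain ⟨y, hy, hyQ⟩ := exists_perp_ne_zero hpol hm hr₀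
    obtain ⟨w₀, hw₀⟩ : ∃ w₀, w₀ = (t / Cfsg.sympForm m F r₀ u) • r₀ := ⟨_, rfl⟩
    obtain ⟨s', hs'⟩ := hsqrt ((1 + Q w₀) / Q y)
    obtain ⟨w, hw⟩ : ∃ w, w = w₀ + s' • y := ⟨_, rfl⟩
    have hw₀u : Cfsg.sympForm m F w₀ u = t := by
      rw [hw₀, ← sympBil_apply, map_smul, LinearMap.smul_apply, sympBil_apply, smul_eq_mul,
        div_mul_cancel₀ _ hr₀]
    have hwu : Cfsg.sympForm m F w u = t := by
      rw [hw, ← sympBil_apply, map_add, map_smul, LinearMap.add_apply, LinearMap.smul_apply,
        sympBil_apply, sympBil_apply, hw₀u, hy.1, smul_zero, add_zero]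
    have hQw : Q w = 1 := by
      have hyw : QuadraticMap.polar Qf w₀ y = 0 := by
        rw [hp, hw₀, ← sympBil_apply, map_smul, LinearMap.smul_apply, sympBil_apply,
          show Cfsg.sympForm m F r₀ y = 0 by rw [Forms.sympForm_swap, hy.2, neg_zero], smul_zero]
      rw [hw, ← hQf, qf_add, QuadraticMap.map_smul, QuadraticMap.polar_smul_right, hyw, hQf, hQf,
        smul_zero, add_zero, smul_eq_mul, hs', div_mul_cancel₀ _ hyQ]
      linear_combination hadd (Q w₀)
    refine ⟨_, hinv _ huS _ (hone w hQw), fun h => ?_, ?_⟩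
    · have hw0 : w = 0 := by
        refine mulVec_injective (spTau u 1) ?_
        show (spTau u 1 : Matrix (Fin m ⊕ Fin m) (Fin m ⊕ Fin m) F) *ᵥ w = _ *ᵥ 0
        rw [Matrix.mulVec_zero]
        exact h
      rw [hw0, ← hQf, map_zero] at hQw
      exact zero_ne_one hQw
    · have hne : Q u + 1 ≠ 0 := fun h => hu1 (by linear_combination h - hadd 1)
      rw [hQτ, hQw, hwu, one_mul, one_mul, pow_two, ht, div_mul_cancel₀ _ hne]
      linear_combination hadd 1
  have hall : ∀ z : V, z ∈ S := by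
    intro z
    rcases eq_or_ne z 0 with rfl | hz
    · show spTau (0 : V) 1 ∈ M
      convert one_mem M using 1
      exact gl_ext_mulVec fun x => by simp [spTau_mulVec]
    obtain ⟨w, hwS, hw0, hwz⟩ := hval (Q z)
    -- reflections move `w` to `z`
    have refl : ∀ a b : V, Q a = Q b → Cfsg.sympForm m F a b ≠ 0 → a ∈ S → b ∈ S := by
      intro a b hab hne ha
      have hQd : Q (a + b) = Cfsg.sympForm m F a b := by
        rw [← hQf, qf_add, hp, hQf, hQf, hab]
        linear_combination hadd (Q b)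
      obtain ⟨s, hs⟩ := hsqrt (Q (a + b))⁻¹
      have h1 : Q (s • (a + b)) = 1 := by
        rw [hQ.smul, pow_two, hs, inv_mul_cancel₀ (hQd.symm ▸ hne)]
      have := hinv _ (hone _ h1) a ha
      convert this using 1
      rw [spTau_apply, map_smul, map_add, sympBil_isAlt.self_eq_zero, zero_add, sympBil_apply,
        smul_eq_mul, one_mul, smul_smul, mul_right_comm, hs, hQd, inv_mul_cancel₀ hne, one_smul,
        ← add_assoc]
      linear_combination (norm := module) -(two_smul_eq_zero a h2)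
    by_cases hne : Cfsg.sympForm m F w z = 0
    swap
    · exact refl w z hwz hne hwS
    obtain ⟨x, -, hxw, hxz⟩ := exists_ne_zero_of_two (S := (⊤ : Submodule F V))
      (φ := (sympBil m F).flip w) (ψ := (sympBil m F).flip z)
      (by
        obtain ⟨r, hr⟩ := exists_sympForm_ne_zero hw0
        exact ⟨r, trivial, by simpa [sympBil_apply] using hr⟩)
      (by
        obtain ⟨r, hr⟩ := exists_sympForm_ne_zero hz
        exact ⟨r, trivial, by simpa [sympBil_apply] using hr⟩)
    simp only [LinearMap.BilinForm.flip_apply, LinearMap.flip_apply, sympBil_apply] at hxw hxz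
    obtain ⟨x, hxQ, hxw, hxz⟩ : ∃ x, Q x ≠ 0 ∧ Cfsg.sympForm m F x w ≠ 0 ∧
        Cfsg.sympForm m F x z ≠ 0 :=
      exists_shift hQ hpol hm hsize hne hxw hxz
    obtain ⟨s, hs⟩ := hsqrt (Q x)⁻¹
    have h1 : Q (s • x) = 1 := by rw [hQ.smul, pow_two, hs, inv_mul_cancel₀ hxQ]
    set w' := (spTau (s • x) 1 : Matrix (Fin m ⊕ Fin m) (Fin m ⊕ Fin m) F) *ᵥ w with hw'
    have hw'S : w' ∈ S := hinv _ (hone _ h1) w hwS
    refine refl w' z ?_ ?_ hw'S
    · rw [hw', hQτ, h1, one_mul, one_mul, hadd, mul_zero, add_zero, hwz]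
    · have hs0 : s ≠ 0 := fun h => by
        rw [h, mul_zero, eq_comm, inv_eq_zero] at hs
        exact hxQ hs
      rw [hw', spTau_apply, ← sympBil_apply, map_add, map_smul, LinearMap.add_apply,
        LinearMap.smul_apply, sympBil_apply, sympBil_apply, hne, zero_add]
      simp only [map_smul, LinearMap.smul_apply, smul_eq_mul, one_mul, sympBil_apply, ← sympBil_apply]
      refine mul_ne_zero (mul_ne_zero hs0 ?_) (mul_ne_zero hs0 ?_)
      · rw [sympBil_apply, Forms.sympForm_swap]; exact neg_ne_zero.2 hxw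
      · rw [sympBil_apply]; exact hxz
  refine spGL_le_of_spTau_mem fun v c => ?_
  obtain ⟨s, hs⟩ := hsqrt c
  have : spTau (s • v) 1 ∈ M := hall _
  convert this using 1
  refine gl_ext_mulVec fun x => ?_
  simp only [spTau_apply, map_smul, smul_eq_mul, smul_smul, ← hs]
  congr 2
  ring

end Cfsg.Agent.GeoLow
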