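import Cfsg.Agent.GeoClasses.SympSubfield

/-!
Subfield subgroups of the symplectic group are maximal from dimension four on (the plane
parameter lemma needs only one rational isotropic plane).
-/

set_option autoImplicit false

namespace Cfsg.Agent.GeoLow

open Matrix Cfsg.Geo Cfsg.Agent.Forms Cfsg.Agent.ClassicalMax Cfsg.Agent.GeoClasses Module
open Cfsg.Agent.MaxSub.SubfieldMax (lo up eq_top_of_unipotents)
open Cfsg.Agent.PSLTwoSub (mk22)
open scoped MatrixGroups Matrix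

universe u

variable {F : Type u} [Field F] {m : ℕ} {M : Subgroup (GL (Fin m ⊕ Fin m) F)}

/-- Two is inverted by a natural number in a finite field of odd characteristic. -/
lemma half_natCast [Finite F] (h2 : (2 : F) ≠ 0) : ∃ k : ℕ, (k : F) * 2 = 1 := by
  haveI := Fintype.ofFinite F
  obtain ⟨p, hp⟩ := CharP.exists F
  have hodd : p % 2 = 1 := by
    rcases (CharP.char_is_prime F p).eq_two_or_odd with rfl | h
    · exact absurd (CharP.cast_eq_zero F 2) (by exact_mod_cast h2)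
    · exact h
  refine ⟨(p + 1) / 2, ?_⟩
  rw [show (((p + 1) / 2 : ℕ) : F) * 2 = (((p + 1) / 2 * 2 : ℕ) : F) by push_cast; rfl,
    show (p + 1) / 2 * 2 = p + 1 by omega, Nat.cast_add, CharP.cast_eq_zero, zero_add, Nat.cast_one]

/-- A product of transvections with pairwise orthogonal centres. -/
lemma spTau_list_apply : ∀ (l : List ((Fin m ⊕ Fin m → F) × F)),
    (∀ u ∈ l, ∀ v ∈ l, sympBil m F u.1 v.1 = 0) → ∀ x : Fin m ⊕ Fin m → F,
    (((l.map fun v => spTau v.1 v.2).prod : GL (Fin m ⊕ Fin m) F) :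
        Matrix (Fin m ⊕ Fin m) (Fin m ⊕ Fin m) F) *ᵥ x =
      x + (l.map fun v => (v.2 * sympBil m F x v.1) • v.1).sum
  | [], _, x => by simp
  | v :: l, h, x => by
    have h0 : sympBil m F (l.map fun w => (w.2 * sympBil m F x w.1) • w.1).sum v.1 = 0 := by
      have key : ∀ l' : List ((Fin m ⊕ Fin m → F) × F), (∀ w ∈ l', sympBil m F w.1 v.1 = 0) →
          sympBil m F (l'.map fun w => (w.2 * sympBil m F x w.1) • w.1).sum v.1 = 0 := by
        intro l'
        induction l' with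
        | nil => intro _; simp
        | cons w l' ih =>
          intro hw
          simp [hw w (by simp), ih (fun u hu => hw u (by simp [hu]))]
      exact key l fun w hw => h w (by simp [hw]) v (by simp)
    rw [List.map_cons, List.prod_cons, Units.val_mul, ← Matrix.mulVec_mulVec,
      spTau_list_apply l (fun a ha b hb => h a (by simp [ha]) b (by simp [hb])) x, spTau_apply,
      map_add, LinearMap.add_apply, h0, add_zero, List.map_cons, List.sum_cons]
    abel

section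

variable {F₀ : Subfield F} {ζ : F} {R : Set (Fin m ⊕ Fin m → F)} (hR : RatSp F₀ ζ R)
  (hMK : M ≤ Cfsg.spGL m F) (hT : ∀ v ∈ R, ∀ a ∈ F₀, spTau v (a * ζ) ∈ M)
include hR hMK hT

/-- If the parameters at rational points are rational, a transvection with centre in a rational
isotropic plane has rational squared coordinates. -/
lemma plane_param [Finite F] (h2 : (2 : F) ≠ 0)
    (hin : ∀ {p}, p ∈ R → p ≠ 0 → ∀ {κ : F}, κ * ζ ∈ spParams M p → κ ∈ F₀)
    {p e : Fin m ⊕ Fin m → F} (hp : p ∈ R) (hp0 : p ≠ 0) (he : e ∈ R)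
    (hep : sympBil m F e p = 0) (hne : e ∉ F ∙ p) {a b : F}
    (hmem : spTau (a • p + b • e) ζ ∈ M) : a ^ 2 ∈ F₀ := by
  have hpe : sympBil m F p e = 0 := by rw [spB_swap e p, hep, neg_zero]
  have hY : ∀ f ∈ R, sympBil m F f p = 0 → f ∉ F ∙ p → spTau (a • p + b • f) ζ ∈ M :=
    fun f hf hfp hfn => plane_move hR hMK hT hp hp0 he hf hep hfp hne hfn hmem
  have hpe' : e + p ∈ R := hR.add he hp
  have m0 := hmem
  have m1 := hY (e + p) hpe' (by simp [hep, sympBil_isAlt.self_eq_zero]) fun h => hne (by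
    simpa using sub_mem h (Submodule.mem_span_singleton_self p))
  have m2 := hY (e - p) (hR.sub he hp) (by simp [hep, sympBil_isAlt.self_eq_zero]) fun h => hne (by
    simpa using add_mem h (Submodule.mem_span_singleton_self p))
  have hinv : ∀ v c, spTau (F := F) (m := m) v c ∈ M → spTau v (-c) ∈ M := fun v c hc =>
    (spParams M v).neg_mem hc
  have h22 : ∀ x : F, 2 * x ∈ F₀ → x ∈ F₀ := fun x hx => by
    have := div_mem hx (natCast_mem F₀ 2)
    push_cast at this
    rwa [mul_div_cancel_left₀ _ h2] at this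
  have hb : b ^ 2 ∈ F₀ := by
    refine h22 _ (hin hp hp0 ?_)
    show spTau p _ ∈ M
    have key : (([(a • p + b • (e + p), ζ), (a • p + b • (e - p), ζ), (a • p + b • e, -ζ),
        (a • p + b • e, -ζ)] :
          List ((Fin m ⊕ Fin m → F) × F)).map fun v => spTau v.1 v.2).prod ∈ M := by
      refine list_prod_mem ?_
      simp only [List.map_cons, List.map_nil, List.mem_cons, List.not_mem_nil, or_false,
        forall_eq_or_imp, forall_eq]
      exact ⟨m1, m2, hinv _ _ m0, hinv _ _ m0⟩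
    convert key using 1
    refine gl_ext_mulVec fun x => ?_
    rw [spTau_list_apply _ ?_ x, spTau_apply]
    · simp only [List.map_cons, List.map_nil, List.sum_cons, List.sum_nil, map_add, map_sub,
        map_smul, smul_eq_mul]
      module
    · simp [hep, hpe, sympBil_isAlt.self_eq_zero]
  rcases eq_or_ne b 0 with rfl | hb0
  · refine hin hp hp0 ?_
    show spTau p _ ∈ M
    convert hmem using 1
    refine gl_ext_mulVec fun x => ?_
    simp only [spTau_apply, map_add, map_smul, smul_eq_mul, zero_smul, add_zero]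
    module
  have hab : a * b ∈ F₀ := by
    refine h22 _ (h22 _ (hin hp hp0 ?_))
    show spTau p _ ∈ M
    have h2b : 2 * b ^ 2 ∈ F₀ := mul_mem (natCast_mem F₀ 2) hb
    have key : (([(a • p + b • (e + p), ζ), (a • p + b • (e - p), -ζ),
        (e + p, -(2 * b ^ 2) * ζ), (p, 2 * b ^ 2 * ζ), (e, 2 * b ^ 2 * ζ)] :
          List ((Fin m ⊕ Fin m → F) × F)).map fun v => spTau v.1 v.2).prod ∈ M := by
      refine list_prod_mem ?_
      simp only [List.map_cons, List.map_nil, List.mem_cons, List.not_mem_nil, or_false,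
        forall_eq_or_imp, forall_eq]
      exact ⟨m1, hinv _ _ m2, hT _ hpe' _ (neg_mem h2b), hT _ hp _ h2b, hT _ he _ h2b⟩
    convert key using 1
    refine gl_ext_mulVec fun x => ?_
    rw [spTau_list_apply _ ?_ x, spTau_apply]
    · simp only [List.map_cons, List.map_nil, List.sum_cons, List.sum_nil, map_add, map_sub,
        map_smul, smul_eq_mul]
      module
    · simp [hep, hpe, sympBil_isAlt.self_eq_zero]
  have := div_mem (mul_mem hab hab) hb
  rwa [show a * b * (a * b) / b ^ 2 = a ^ 2 by field_simp] at this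

/-- An element fixing `p` and moving one rational vector orthogonal to `p` to another. -/
lemma exists_move {p e f : Fin m ⊕ Fin m → F} (hp : p ∈ R) (hp0 : p ≠ 0) (he : e ∈ R) (hf : f ∈ R)
    (hep : sympBil m F e p = 0) (hfp : sympBil m F f p = 0) (hne : e ∉ F ∙ p) (hnf : f ∉ F ∙ p) :
    ∃ k ∈ M, (k : Matrix (Fin m ⊕ Fin m) (Fin m ⊕ Fin m) F) *ᵥ p = p ∧
      (k : Matrix (Fin m ⊕ Fin m) (Fin m ⊕ Fin m) F) *ᵥ e = f := by
  have step : ∀ e f : Fin m ⊕ Fin m → F, e ∈ R → f ∈ R → sympBil m F e p = 0 →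
      sympBil m F f p = 0 → sympBil m F e f ≠ 0 →
      ∃ k ∈ M, (k : Matrix (Fin m ⊕ Fin m) (Fin m ⊕ Fin m) F) *ᵥ p = p ∧
        (k : Matrix (Fin m ⊕ Fin m) (Fin m ⊕ Fin m) F) *ᵥ e = f := by
    intro e f he hf hep hfp hef
    have hd : sympBil m F e (f - e) ≠ 0 := by
      rw [map_sub, sympBil_isAlt.self_eq_zero, sub_zero]; exact hef
    refine ⟨_, hT _ (hR.sub hf he) _ (inv_mem (hR.form he (hR.sub hf he))), ?_, ?_⟩
    · have h1 : sympBil m F p (f - e) = 0 := by
        rw [map_sub, spB_swap f p, spB_swap e p, hfp, hep]; simp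
      rw [spTau_apply, h1, mul_zero, zero_smul, add_zero]
    · rw [spTau_apply, mul_assoc ((ζ * sympBil m F e (f - e))⁻¹) ζ (sympBil m F e (f - e)),
        inv_mul_cancel₀ (mul_ne_zero hR.zeta hd), one_smul, add_sub_cancel]
  obtain ⟨g, hg, hgp, heg, hfg⟩ := hR.exists_perp_not_orth_two hp hne hnf hp0
  obtain ⟨k₁, hk₁, h1p, h1e⟩ := step e g he hg hep hgp heg
  obtain ⟨k₂, hk₂, h2p, h2g⟩ := step g f hg hf hgp hfp
    (fun h => hfg (by rw [spB_swap g f, h, neg_zero]))
  refine ⟨k₂ * k₁, mul_mem hk₂ hk₁, ?_, ?_⟩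
  · rw [Units.val_mul, ← Matrix.mulVec_mulVec, h1p, h2p]
  · rw [Units.val_mul, ← Matrix.mulVec_mulVec, h1e, h2g]

set_option maxHeartbeats 1600000 in
/-- In characteristic two, elements scaling one vector of an irrational point in a rational
isotropic plane give an irrational parameter. -/
lemma param_char_two [Fintype F] (h2 : (2 : F) = 0) {v w : Fin m ⊕ Fin m → F} (hv : v ∈ R)
    (hw : w ∈ R) (hwv : sympBil m F w v = 0) (hv0 : v ≠ 0) (hnw : w ∉ F ∙ v) {ρ : F} (hρ : ρ ^ 2 ∉ F₀)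
    (hh : ∀ t : F, t ≠ 0 → ∃ h ∈ M,
      (h : Matrix (Fin m ⊕ Fin m) (Fin m ⊕ Fin m) F) *ᵥ (w - ρ • v) = w - ρ • v ∧
      ∃ l : F, (h : Matrix (Fin m ⊕ Fin m) (Fin m ⊕ Fin m) F) *ᵥ v = t • v + l • (w - ρ • v)) :
    ρ ^ 2 * ζ ∈ spParams M v := by
  classical
  haveI : CharP F 2 := CharTwo.of_one_ne_zero_of_two_eq_zero one_ne_zero h2
  have hnum : ∀ (n : ℕ) [n.AtLeastTwo], (OfNat.ofNat n : F) = ((n % 2 : ℕ) : F) :=
    fun n _ => (Nat.cast_ofNat (R := F) (n := n)).symm.trans (CharP.cast_eq_mod F 2 n)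
  have hsq : ∀ c : F, ∃ s, s * s = c := fun c => by
    obtain ⟨s, hs⟩ := FiniteField.isSquare_of_char_two (ringChar.eq F 2) c
    exact ⟨s, hs.symm⟩
  have hρ0 : ρ ≠ 0 := fun h => hρ (by rw [h, zero_pow two_ne_zero]; exact zero_mem _)
  have hρ1 : ρ ≠ 1 := fun h => hρ (by rw [h, one_pow]; exact one_mem _)
  -- one element scaling a vector of the plane by a generator of the units
  obtain ⟨u, hu⟩ := IsCyclic.exists_generator (α := Fˣ)
  have hu1 : (u : F) ≠ 1 := by
    intro h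
    apply hρ1
    obtain ⟨n, hn⟩ := Subgroup.mem_zpowers_iff.1 (hu (Units.mk0 ρ hρ0))
    have := congrArg (Units.val) hn
    rw [show u = 1 from Units.ext h, _root_.one_zpow] at this
    simpa using this.symm
  obtain ⟨h, hhM, hhr, l, hhv⟩ := hh u u.ne_zero
  set r₀ := w - ρ • v with hr₀
  set L := l / ((u : F) - 1) with hL
  set v' := v + L • r₀ with hv'
  have hv'r : sympBil m F v' r₀ = 0 := by
    simp [hv', hr₀, hwv, spB_swap w v, sympBil_isAlt.self_eq_zero]
  have hr'v : sympBil m F r₀ v' = 0 := by rw [spB_swap v' r₀, hv'r, neg_zero]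
  have hhv' : (h : Matrix (Fin m ⊕ Fin m) (Fin m ⊕ Fin m) F) *ᵥ v' = (u : F) • v' := by
    rw [hv', Matrix.mulVec_add, Matrix.mulVec_smul, hhv, hhr, hL]
    have : (u : F) - 1 ≠ 0 := sub_ne_zero.2 hu1
    match_scalars <;> field_simp <;> ring
  have hscale : ∀ t : F, t ≠ 0 → ∃ k ∈ M,
      (k : Matrix (Fin m ⊕ Fin m) (Fin m ⊕ Fin m) F) *ᵥ r₀ = r₀ ∧
      (k : Matrix (Fin m ⊕ Fin m) (Fin m ⊕ Fin m) F) *ᵥ v' = t • v' := by
    intro t ht
    have key : ∀ n : ℕ, ((h ^ n : GL _ F) : Matrix (Fin m ⊕ Fin m) (Fin m ⊕ Fin m) F) *ᵥ r₀ = r₀ ∧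
        ((h ^ n : GL _ F) : Matrix (Fin m ⊕ Fin m) (Fin m ⊕ Fin m) F) *ᵥ v' = ((u : F) ^ n) • v' := by
      intro n
      induction n with
      | zero => simp
      | succ n ih =>
        rw [pow_succ, Units.val_mul, ← Matrix.mulVec_mulVec, ← Matrix.mulVec_mulVec, hhr, hhv',
          Matrix.mulVec_smul, ih.1, ih.2, smul_smul, pow_succ, mul_comm]
        exact ⟨rfl, rfl⟩
    obtain ⟨n, hn⟩ := (mem_powers_iff_mem_zpowers (x := u) (y := Units.mk0 t ht)).2 (hu _)
    refine ⟨h ^ n, pow_mem hhM n, (key n).1, ?_⟩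
    rw [(key n).2]
    congr 1
    simpa using congrArg Units.val hn
  have hadd : ∀ x : F, x + x = 0 := CharTwo.add_self_eq_zero
  have hS : ∀ z ∈ R, ∀ a b : F, z = a • v' + b • r₀ → ∀ t : F, t ≠ 0 →
      spTau ((t * a) • v' + b • r₀) ζ ∈ M := by
    intro z hz a b hzab t ht
    obtain ⟨k, hk, hkr, hkv⟩ := hscale t ht
    have := spTau_conj_mem hMK hk (hT z hz 1 (one_mem _))
    rwa [one_mul, hzab, Matrix.mulVec_add, Matrix.mulVec_smul, Matrix.mulVec_smul, hkr, hkv,
      smul_smul, mul_comm a] at this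
  -- the square of the second coordinate
  have hR0 : ∀ z ∈ R, ∀ a b : F, z = a • v' + b • r₀ → spTau r₀ (b ^ 2 * ζ) ∈ M := by
    intro z hz a b hzab
    have key : (([((1 * a) • v' + b • r₀, ζ), ((ρ * a) • v' + b • r₀, ζ),
        (((1 + ρ) * a) • v' + b • r₀, ζ)] :
          List ((Fin m ⊕ Fin m → F) × F)).map fun v => spTau v.1 v.2).prod ∈ M := by
      refine list_prod_mem ?_
      simp only [List.map_cons, List.map_nil, List.mem_cons, List.not_mem_nil, or_false,
        forall_eq_or_imp, forall_eq]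
      exact ⟨hS z hz a b hzab 1 one_ne_zero, hS z hz a b hzab ρ hρ0,
        hS z hz a b hzab (1 + ρ) fun h => hρ1 (by linear_combination h - hadd 1)⟩
    convert key using 1
    refine gl_ext_mulVec fun x => ?_
    rw [spTau_list_apply _ ?_ x, spTau_apply]
    · simp only [List.map_cons, List.map_nil, List.sum_cons, List.sum_nil, map_add, map_smul,
        smul_eq_mul]
      match_scalars <;> ((try simp only [CharTwo.sub_eq_add, CharTwo.neg_eq]) <;> ring_nf <;> try simp [hnum])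
    · simp [hv'r, hr'v, sympBil_isAlt.self_eq_zero]
  have hD : ∀ z ∈ R, ∀ a b : F, z = a • v' + b • r₀ → ∀ t : F,
      spTau ((t * a) • v' + b • r₀) ζ * spTau r₀ (b ^ 2 * ζ) ∈ M := by
    intro z hz a b hzab t
    rcases eq_or_ne t 0 with rfl | ht
    · convert one_mem M using 1
      refine gl_ext_mulVec fun x => ?_
      simp only [Units.val_mul, ← Matrix.mulVec_mulVec, spTau_apply, Units.val_one,
        Matrix.one_mulVec, zero_mul, zero_smul, zero_add, map_smul, map_add, LinearMap.add_apply,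
        LinearMap.smul_apply, sympBil_isAlt.self_eq_zero, smul_zero, smul_eq_mul, add_zero]
      match_scalars <;> ((try simp only [CharTwo.sub_eq_add, CharTwo.neg_eq]) <;> ring_nf <;> try simp [hnum])
    · exact mul_mem (hS z hz a b hzab t ht) (hR0 z hz a b hzab)
  have ev : v = (1 : F) • v' + L • r₀ := by
    rw [hv']
    match_scalars <;> ((try simp only [CharTwo.sub_eq_add, CharTwo.neg_eq]) <;> ring_nf <;> try simp [hnum])
  have ew : w = ρ • v' + (1 + ρ * L) • r₀ := by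
    rw [hv', hr₀]
    match_scalars <;> ((try simp only [CharTwo.sub_eq_add, CharTwo.neg_eq]) <;> ring_nf <;> try simp [hnum])
  by_cases hL0 : L = 0
  · show spTau v (ρ ^ 2 * ζ) ∈ M
    have := hS v hv 1 L ev ρ hρ0
    rw [mul_one, hL0, zero_smul, add_zero, hv', hL0, zero_smul, add_zero] at this
    convert this using 1
    refine gl_ext_mulVec fun x => ?_
    simp only [spTau_apply, map_smul, smul_eq_mul]
    module
  -- all parameters at `v'`
  obtain ⟨z, hz, a, b, hzab, ha, hb⟩ : ∃ z ∈ R, ∃ a b : F,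
      z = a • v' + b • r₀ ∧ a ≠ 0 ∧ b ≠ L := by
    by_cases hb : 1 + ρ * L = L
    · refine ⟨v + w, hR.add hv hw, 1 + ρ, L + (1 + ρ * L), ?_, fun h => hρ1 (by
        linear_combination h - hadd 1), ?_⟩
      · conv_lhs => rw [ev, ew]
        module
      · rw [hb, hadd]; exact Ne.symm hL0
    · exact ⟨w, hw, ρ, _, ew, hρ0, hb⟩
  have hall : ∀ c : F, spTau v' (c * ζ) ∈ M := by
    intro c
    obtain ⟨s, hs⟩ := hsq c
    have hne : L + b ≠ 0 := fun h => hb (by linear_combination h - hadd L)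
    set t := s * L / (a * (L + b)) with ht
    set t' := t * a * b / L with ht'
    have key := mul_mem (hD z hz a b hzab t) (hD v hv 1 L ev t')
    convert key using 1
    refine gl_ext_mulVec fun x => ?_
    simp only [Units.val_mul, ← Matrix.mulVec_mulVec, spTau_apply, map_add, map_smul,
      LinearMap.add_apply, LinearMap.smul_apply, smul_eq_mul, hv'r, hr'v,
      sympBil_isAlt.self_eq_zero, ← hs, ht', ht]
    match_scalars <;> field_simp <;> ((try simp only [CharTwo.sub_eq_add, CharTwo.neg_eq]) <;> ring_nf <;> try simp [hnum])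
  -- all crossed parameters
  have hcross : ∀ c : F,
      spTau (v' + r₀) (c * ζ) * spTau v' (c * ζ) * spTau r₀ (c * ζ) ∈ M := by
    intro c
    have key := mul_mem (hD v hv 1 L ev (c / L)) (hall ((c / L) ^ 2))
    convert key using 1
    refine gl_ext_mulVec fun x => ?_
    simp only [Units.val_mul, ← Matrix.mulVec_mulVec, spTau_apply, map_add, map_smul,
      LinearMap.add_apply, LinearMap.smul_apply, smul_eq_mul, hv'r, hr'v,
      sympBil_isAlt.self_eq_zero]
    match_scalars <;> field_simp <;> ((try simp only [CharTwo.sub_eq_add, CharTwo.neg_eq]) <;> ring_nf <;> try simp [hnum])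
  obtain ⟨k, hk, hkv, hkw⟩ := exists_move hR hMK hT hv hv0 hw (hR.add hw hv) hwv
    (by rw [map_add, LinearMap.add_apply, hwv, sympBil_isAlt.self_eq_zero, add_zero]) hnw
    (fun h0 => hnw (by simpa using sub_mem h0 (Submodule.mem_span_singleton_self v)))
  show spTau v (ρ ^ 2 * ζ) ∈ M
  set c := ρ ^ 2 / L ^ 2 with hc
  have hkv' : spTau ((k : Matrix (Fin m ⊕ Fin m) (Fin m ⊕ Fin m) F) *ᵥ v') (c * ζ) ∈ M :=
    spTau_conj_mem hMK hk (hall c)
  have key := mul_mem (mul_mem (hall c) hkv') (hcross (L ^ 2 * c))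
  convert key using 1
  refine gl_ext_mulVec fun x => ?_
  have e' : (k : Matrix (Fin m ⊕ Fin m) (Fin m ⊕ Fin m) F) *ᵥ v' = v' + L • v := by
    rw [hv', hr₀]
    simp only [Matrix.mulVec_add, Matrix.mulVec_sub, Matrix.mulVec_smul, hkv, hkw]
    module
  rw [e']
  simp only [hv', hr₀, Units.val_mul, ← Matrix.mulVec_mulVec, spTau_apply, map_add, map_sub,
    map_smul, LinearMap.add_apply, LinearMap.sub_apply, LinearMap.smul_apply, smul_eq_mul, hwv,
    spB_swap w v, sympBil_isAlt.self_eq_zero, hc]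
  match_scalars <;> field_simp <;> ((try simp only [CharTwo.sub_eq_add, CharTwo.neg_eq]) <;> ring_nf <;> try simp [hnum])

/-- The pairs of rational vectors giving an irrational parameter. -/
lemma exists_irrational_param [Fintype F] (hm : 2 ≤ m)
    (hmid : ∀ L : Subfield F, F₀ ≤ L → L = F₀ ∨ L = ⊤) {x : Fin m ⊕ Fin m → F}
    (hx : ∀ κ : F, κ • x ∈ R → κ = 0) (hxM : ∀ a ∈ F₀, spTau x (a * ζ) ∈ M) :
    ∃ p ∈ R, p ≠ 0 ∧ ∃ κ, κ ∉ F₀ ∧ κ * ζ ∈ spParams M p := by
  classical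
  have hm2 : 2 ≤ m := hm
  have hx0 : x ≠ 0 := fun h => one_ne_zero (hx 1 (by rw [h, smul_zero]; exact hR.zero))
  obtain ⟨v, hv, hxv⟩ := hR.exists_not_orth hx0
  have hv0 : v ≠ 0 := fun h => hxv (by rw [h, map_zero])
  -- a rational vector orthogonal to `v` with a new ratio
  obtain ⟨v, hv, hv0, hxv, w, hw, hwv, ρ, hρ, hρ0⟩ : ∃ v ∈ R, v ≠ 0 ∧ sympBil m F x v ≠ 0 ∧
      ∃ w ∈ R, sympBil m F w v = 0 ∧ ∃ ρ : F, sympBil m F x w = ρ * sympBil m F x v ∧
        ρ ^ 2 ∉ F₀ := by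
    suffices h : ∃ v ∈ R, v ≠ 0 ∧ sympBil m F x v ≠ 0 ∧
        ∃ w ∈ R, sympBil m F w v = 0 ∧ sympBil m F x w / sympBil m F x v ∉ F₀ by
      obtain ⟨v, hv, hv0, hxv, w, hw, hwv, hρ⟩ := h
      set ρ := sympBil m F x w / sympBil m F x v with hρd
      have hρe : sympBil m F x w = ρ * sympBil m F x v := by rw [hρd, div_mul_cancel₀ _ hxv]
      by_cases h1 : ρ ^ 2 ∈ F₀
      · refine ⟨v, hv, hv0, hxv, w + v, hR.add hw hv, ?_, ρ + 1, ?_, fun h2 =>
          hρ (mem_subfield_of_sq_succ h1 h2)⟩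
        · rw [map_add, LinearMap.add_apply, hwv, sympBil_isAlt.self_eq_zero, add_zero]
        · rw [map_add, hρe]; ring
      · exact ⟨v, hv, hv0, hxv, w, hw, hwv, ρ, hρe, h1⟩
    by_contra hc
    push Not at hc
    obtain ⟨f, hf, hvf⟩ := hR.exists_pair hv hv0
    have hf0 : f ≠ 0 := fun h => by rw [h, map_zero, mul_zero] at hvf; exact zero_ne_one hvf
    obtain ⟨w₀, hw₀, hw₀0, h₀⟩ := hR.perp 2 (by omega) ![v, f]
      (by simp [Fin.forall_fin_two, hv, hf])
    simp [Fin.forall_fin_two] at h₀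
    obtain ⟨g, hg, hg1⟩ := hR.exists_pair hw₀ hw₀0
    -- remove the components of `g` along the pair
    obtain ⟨g, hg, hgv, hgf, hg1⟩ : ∃ g ∈ R, sympBil m F g v = 0 ∧ sympBil m F g f = 0 ∧
        ζ * sympBil m F w₀ g = 1 := by
      refine ⟨g - (ζ * sympBil m F v g) • f + (ζ * sympBil m F f g) • v,
        hR.add (hR.sub hg (hR.smul (hR.form hv hg) hf)) (hR.smul (hR.form hf hg) hv), ?_, ?_, ?_⟩
      · simp only [map_add, map_sub, map_smul, LinearMap.add_apply, LinearMap.sub_apply,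
          LinearMap.smul_apply, smul_eq_mul, sympBil_isAlt.self_eq_zero, spB_swap v g, spB_swap v f]
        linear_combination (sympBil m F v g) * hvf
      · simp only [map_add, map_sub, map_smul, LinearMap.add_apply, LinearMap.sub_apply,
          LinearMap.smul_apply, smul_eq_mul, sympBil_isAlt.self_eq_zero, spB_swap f g]
        linear_combination (sympBil m F f g) * hvf
      · simp only [map_add, map_sub, map_smul, smul_eq_mul, h₀.1, h₀.2]
        linear_combination hg1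
    have hfv : sympBil m F x f / sympBil m F x v ∈ F₀ := by
      by_cases hgx : sympBil m F x g = 0
      · have hw' : g + v ∈ R := hR.add hg hv
        have hxw' : sympBil m F x (g + v) = sympBil m F x v := by rw [map_add, hgx, zero_add]
        have hw'0 : g + v ≠ 0 := fun h => hxv (by rw [← hxw', h, map_zero])
        have h1 := hc (g + v) hw' hw'0 (by rw [hxw']; exact hxv) (f + w₀) (hR.add hf hw₀) (by
          simp only [map_add, LinearMap.add_apply, spB_swap v f, spB_swap g f, hgf, h₀.1,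
            sympBil_isAlt.self_eq_zero, neg_zero]
          refine mul_left_cancel₀ hR.zeta ?_
          linear_combination hg1 - hvf)
        rw [hxw'] at h1
        by_cases hxw₀ : sympBil m F x w₀ = 0
        · rwa [map_add, hxw₀, add_zero] at h1
        · have h2 := hc v hv hv0 hxv w₀ hw₀ h₀.1
          have := sub_mem h1 h2
          rwa [map_add, add_div, add_sub_cancel_right] at this
      · have hg0 : g ≠ 0 := fun h => hgx (by rw [h, map_zero])
        have h1 := hc g hg hg0 hgx f hf (by rw [spB_swap g f, hgf, neg_zero])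
        have h2 := hc v hv hv0 hxv g hg hgv
        have := mul_mem h1 h2
        rwa [div_mul_div_cancel₀ hgx] at this
    have hall : ∀ z ∈ R, sympBil m F x z / sympBil m F x v ∈ F₀ := by
      intro z hz
      have hz' : z - (ζ * sympBil m F v z) • f ∈ R := hR.sub hz (hR.smul (hR.form hv hz) hf)
      have h1 := hc v hv hv0 hxv _ hz' (by
        simp only [map_sub, map_smul, LinearMap.sub_apply, LinearMap.smul_apply, smul_eq_mul,
          spB_swap v z, spB_swap v f]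
        linear_combination (sympBil m F v z) * hvf)
      have := add_mem h1 (mul_mem (hR.form hv hz) hfv)
      convert this using 1
      simp only [map_sub, map_smul, smul_eq_mul]
      ring
    have := hx (ζ * sympBil m F x v)⁻¹ (hR.desc _ fun z hz => by
      convert hall z hz using 1
      simp only [map_smul, LinearMap.smul_apply, smul_eq_mul]
      field_simp [hR.zeta])
    exact mul_ne_zero hR.zeta hxv (inv_eq_zero.1 this)
  set c := ζ * sympBil m F x v with hc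
  have hc0 : c ≠ 0 := mul_ne_zero hR.zeta hxv
  set r₀ := w - ρ • v with hr₀
  have hr₀x : sympBil m F r₀ x = 0 := by
    simp only [hr₀, map_sub, map_smul, LinearMap.sub_apply, LinearMap.smul_apply, smul_eq_mul,
      spB_swap x w, spB_swap x v, hρ]
    ring
  have hr₀v : sympBil m F r₀ v = 0 := by
    simp [hr₀, hwv, sympBil_isAlt.self_eq_zero]
  have hr₀w : sympBil m F r₀ w = 0 := by
    simp [hr₀, spB_swap w v, hwv, sympBil_isAlt.self_eq_zero]
  let carrier : Set SL(2, F) := {g | ∃ h ∈ M,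
    (h : Matrix (Fin m ⊕ Fin m) (Fin m ⊕ Fin m) F) *ᵥ r₀ = r₀ ∧
    (∃ l : F, (h : Matrix (Fin m ⊕ Fin m) (Fin m ⊕ Fin m) F) *ᵥ v =
      g.1 0 0 • v + g.1 1 0 • x + l • r₀) ∧
    ∃ l : F, (h : Matrix (Fin m ⊕ Fin m) (Fin m ⊕ Fin m) F) *ᵥ x =
      g.1 0 1 • v + g.1 1 1 • x + l • r₀}
  let N : Submonoid SL(2, F) :=
    { carrier := carrier
      one_mem' := ⟨1, one_mem M, by simp, ⟨0, by simp⟩, ⟨0, by simp⟩⟩
      mul_mem' := by
        rintro a b ⟨h, hh, hr, ⟨l₁, e₁⟩, ⟨l₂, e₂⟩⟩ ⟨k, hk, kr, ⟨n₁, f₁⟩, ⟨n₂, f₂⟩⟩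
        refine ⟨h * k, mul_mem hh hk, ?_, ⟨b.1 0 0 * l₁ + b.1 1 0 * l₂ + n₁, ?_⟩,
          ⟨b.1 0 1 * l₁ + b.1 1 1 * l₂ + n₂, ?_⟩⟩
        · rw [Units.val_mul, ← Matrix.mulVec_mulVec, kr, hr]
        · rw [Units.val_mul, ← Matrix.mulVec_mulVec, f₁]
          simp only [Matrix.mulVec_add, Matrix.mulVec_smul, e₁, e₂, hr,
            Matrix.SpecialLinearGroup.coe_mul, Matrix.mul_apply, Fin.sum_univ_two]
          module
        · rw [Units.val_mul, ← Matrix.mulVec_mulVec, f₂]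
          simp only [Matrix.mulVec_add, Matrix.mulVec_smul, e₁, e₂, hr,
            Matrix.SpecialLinearGroup.coe_mul, Matrix.mul_apply, Fin.sum_univ_two]
          module }
  let N' : Subgroup SL(2, F) :=
    { N with
      inv_mem' := fun {g} hg => by
        rw [inv_eq_iff_eq_inv.2 (show g = (g ^ (orderOf g - 1))⁻¹ from eq_inv_of_mul_eq_one_left (by
          rw [← pow_succ', Nat.sub_add_cancel (orderOf_pos g), pow_orderOf_eq_one]))]
        exact N.pow_mem hg _ }
  have hN : N' = ⊤ := by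
    refine eq_top_of_unipotents F₀ hmid N' (l := -c) (m₁ := c) (m₂ := ρ ^ 2 * c)
      (neg_ne_zero.2 hc0) hc0 (by rwa [mul_div_cancel_right₀ _ hc0]) ?_ ?_ ?_
    · intro a ha
      refine ⟨_, hxM a ha, ?_, ⟨0, ?_⟩, ⟨0, ?_⟩⟩
      · rw [spTau_apply, hr₀x, mul_zero, zero_smul, add_zero]
      · rw [spTau_apply, spB_swap x v]
        simp [lo, hc]
        module
      · rw [spTau_apply, sympBil_isAlt.self_eq_zero]
        simp [lo]
    · intro a ha
      refine ⟨_, hT v hv a ha, ?_, ⟨0, ?_⟩, ⟨0, ?_⟩⟩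
      · rw [spTau_apply, hr₀v, mul_zero, zero_smul, add_zero]
      · rw [spTau_apply, sympBil_isAlt.self_eq_zero]
        simp [up]
      · rw [spTau_apply]
        simp [up, hc]
        module
    · intro a ha
      refine ⟨_, hT w hw a ha, ?_, ⟨0, ?_⟩, ⟨a * ρ * c, ?_⟩⟩
      · rw [spTau_apply, hr₀w, mul_zero, zero_smul, add_zero]
      · rw [spTau_apply, spB_swap w v, hwv]
        simp [up]
      · rw [spTau_apply, hρ]
        simp [up, hc, hr₀]
        module
  have hnw : w ∉ F ∙ v := fun h0 => by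
    obtain ⟨t, ht⟩ := Submodule.mem_span_singleton.1 h0
    rw [← ht, map_smul, smul_eq_mul] at hρ
    obtain rfl := mul_right_cancel₀ hxv hρ
    obtain ⟨q, hq, hvq⟩ := hR.exists_pair hv hv0
    have := hR.form hw hq
    rw [← ht, map_smul, LinearMap.smul_apply, smul_eq_mul, mul_left_comm, hvq, mul_one] at this
    exact hρ0 (pow_mem this 2)
  by_cases h2 : (2 : F) = 0
  · exact ⟨v, hv, hv0, ρ ^ 2, hρ0, param_char_two hR hMK hT h2 hv hw hwv hv0 hnw hρ0
      fun t ht => by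
        obtain ⟨h, hh, hr, ⟨l, hl⟩, -⟩ : mk22 t 0 0 t⁻¹ (by rw [mul_inv_cancel₀ ht]; ring) ∈ N' := by
          rw [hN]; trivial
        refine ⟨h, hh, by rwa [hr₀] at hr, l, ?_⟩
        simpa [Cfsg.Agent.PSLTwoSub.coe_mk22, hr₀] using hl⟩
  have hρ1 : ρ ≠ 0 := fun h0 => hρ0 (by rw [h0, zero_pow two_ne_zero]; exact zero_mem _)
  obtain ⟨h, hh, hr, ⟨l, hl⟩, -⟩ : mk22 ρ 0 0 ρ⁻¹ (by rw [mul_inv_cancel₀ hρ1]; ring) ∈ N' := by
    rw [hN]; trivial
  simp only [Cfsg.Agent.PSLTwoSub.coe_mk22, Matrix.of_apply, Matrix.cons_val', Matrix.cons_val_zero,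
    Matrix.cons_val_one, Matrix.cons_val_fin_one, zero_smul, add_zero] at hl
  set c₁ := ρ - l * ρ with hc₁
  set c₂ := l with hc₂
  set e₁ := ρ * (c₁ - 1) with he₁
  set e₂ := 1 + ρ * c₂ with he₂
  have hY : (h : Matrix (Fin m ⊕ Fin m) (Fin m ⊕ Fin m) F) *ᵥ v = c₁ • v + c₂ • w := by
    rw [hl, hr₀, hc₁]; module
  have hY' : (h : Matrix (Fin m ⊕ Fin m) (Fin m ⊕ Fin m) F) *ᵥ w = e₁ • v + e₂ • w := by
    conv_lhs => rw [show w = r₀ + ρ • v by rw [hr₀]; abel, Matrix.mulVec_add, Matrix.mulVec_smul, hr, hY]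
    rw [he₁, he₂, hr₀]; module
  have hnv : v ∉ F ∙ w := fun h0 => hnw (by
    obtain ⟨t, ht⟩ := Submodule.mem_span_singleton.1 h0
    have ht0 : t ≠ 0 := fun h1 => hv0 (by rw [← ht, h1, zero_smul])
    exact Submodule.mem_span_singleton.2 ⟨t⁻¹, by rw [← ht, inv_smul_smul₀ ht0]⟩)
  have hnvw : v + w ∉ F ∙ v := fun h0 => hnw (by
    simpa using sub_mem h0 (Submodule.mem_span_singleton_self v))
  have hw0 : w ≠ 0 := fun h0 => hnw (h0 ▸ zero_mem _)
  have hvw0 : v + w ≠ 0 := fun h0 => hnvw (h0 ▸ zero_mem _)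
  by_contra hcon
  push Not at hcon
  have hin : ∀ {p}, p ∈ R → p ≠ 0 → ∀ {κ}, κ * ζ ∈ spParams M p → κ ∈ F₀ := by
    intro p hp hp0 κ hκ
    by_contra h0
    exact hcon p hp hp0 κ h0 hκ
  have coeffs : ∀ a b : F, spTau (a • v + b • w) ζ ∈ M →
      a ^ 2 ∈ F₀ ∧ b ^ 2 ∈ F₀ ∧ 2 * a * b ∈ F₀ := by
    intro a b hab
    have h1 := plane_param hR hMK hT h2 hin hv hv0 hw hwv hnw hab
    have h2' := plane_param hR hMK hT h2 hin hw hw0 hv
      (by rw [spB_swap w v, hwv, neg_zero]) hnv (a := b) (b := a) (by rwa [add_comm])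
    have h3 := plane_param hR hMK hT h2 hin hv hv0 (hR.add hv hw)
      (by rw [map_add, LinearMap.add_apply, hwv, sympBil_isAlt.self_eq_zero, add_zero]) hnvw
      (a := a - b) (b := b) (by convert hab using 2; module)
    refine ⟨h1, h2', ?_⟩
    convert sub_mem (add_mem h1 h2') h3 using 1
    ring
  have hvζ : spTau v ζ ∈ M := by simpa using hT v hv 1 (one_mem _)
  have hwζ : spTau w ζ ∈ M := by simpa using hT w hw 1 (one_mem _)
  have hA := spTau_conj_mem hMK hh hvζ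
  have hB := spTau_conj_mem hMK hh hwζ
  rw [hY] at hA
  rw [hY'] at hB
  obtain ⟨a1, a2, a3⟩ := coeffs _ _ hA
  obtain ⟨b1, b2, b3⟩ := coeffs _ _ hB
  apply hρ0
  have hdet : ρ ^ 2 = c₁ ^ 2 * e₂ ^ 2 + c₂ ^ 2 * e₁ ^ 2 - 2 * (c₁ * c₂) * (e₁ * e₂) := by
    rw [he₁, he₂, hc₁]; ring
  rw [hdet]
  refine sub_mem (add_mem (mul_mem a1 b2) (mul_mem a2 b1)) ?_
  by_cases h2 : (2 : F) = 0
  · rw [h2, zero_mul, zero_mul]; exact zero_mem _
  · convert div_mem (mul_mem a3 b3) (show (2 : F) ∈ F₀ from natCast_mem _ 2) using 1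
    field_simp

end

/-- Subfield subgroups are maximal in the symplectic group of dimension at least four. -/
theorem spGL_subfield_maximal_of_two_le [Fintype F] (hm : 2 ≤ m) {F₀ : Subfield F} {r : ℕ}
    (hr : r.Prime) (hcard : Fintype.card F = Nat.card F₀ ^ r) {P : GL (Fin m ⊕ Fin m) F} {ζ : F}
    (hζ : ζ ≠ 0) (hP : IsFormRationalStructure (Cfsg.sympForm m F) F₀ ζ P) :
    IsMaximalIn (Cfsg.spGL m F) (subfieldSubgroup F₀ P ⊓ Cfsg.spGL m F) := by
  classical
  have hm2 : 2 ≤ m := hm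
  have hcard4 : 4 ≤ Fintype.card F := by
    rw [hcard]
    calc 4 = 2 ^ 2 := rfl
      _ ≤ 2 ^ r := Nat.pow_le_pow_right (by norm_num) hr.two_le
      _ ≤ _ := Nat.pow_le_pow_left (Finite.one_lt_card (α := F₀)) r
  have hperf := spGL_commutator (F := F) (m := m) (Or.inr (Or.inr hcard4))
  refine ⟨lt_of_le_not_ge inf_le_right fun hle => spGL_not_le_subfieldSubgroup (by omega) hperf
    (MaxSub.subfield_ne_top hr hcard) P (hle.trans inf_le_left), fun M hM hMK => ?_⟩
  have hmid := MaxSub.SubfieldMax.mid_of_prime hr hcard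
  have hR := ratSp_ratVecs hζ hP
  set R := ratVecs F₀ P with hRdef
  have hbasis : ∀ j, (P : Matrix (Fin m ⊕ Fin m) (Fin m ⊕ Fin m) F) *ᵥ Pi.single j 1 ∈ R :=
    fun j i => by
      show (((P⁻¹ : GL (Fin m ⊕ Fin m) F) : Matrix (Fin m ⊕ Fin m) (Fin m ⊕ Fin m) F) *ᵥ _) i ∈ F₀
      rw [gl_inv_mulVec]
      by_cases h : i = j <;> simp [h]
  have hT : ∀ v ∈ R, ∀ a ∈ F₀, spTau v (a * ζ) ∈ M := fun v hv a ha =>
    hM ⟨mem_subfieldSubgroup_of_ratio one_ne_zero fun i j => by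
      have h2 := ratTau_map hR hv ha (hbasis j) i
      rw [inv_one, one_mul]
      have h3 : ((P⁻¹ * spTau v (a * ζ) * P : GL (Fin m ⊕ Fin m) F) : Matrix (Fin m ⊕ Fin m) (Fin m ⊕ Fin m) F) i j =
          (((P⁻¹ : GL (Fin m ⊕ Fin m) F) : Matrix (Fin m ⊕ Fin m) (Fin m ⊕ Fin m) F) *ᵥ
            ((spTau v (a * ζ) : Matrix (Fin m ⊕ Fin m) (Fin m ⊕ Fin m) F) *ᵥ
              ((P : Matrix (Fin m ⊕ Fin m) (Fin m ⊕ Fin m) F) *ᵥ Pi.single j 1))) i := by
        rw [← mulVec_conj_col]; simp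
      rw [h3, spTau_apply]
      exact h2, spTau_mem _ _⟩
  by_cases hirr : ∃ g ∈ M, ∃ v ∈ R, ∀ κ : F,
      κ • ((g : Matrix (Fin m ⊕ Fin m) (Fin m ⊕ Fin m) F) *ᵥ v) ∈ R → κ = 0
  · obtain ⟨g, hg, v, hv, hgv⟩ := hirr
    right
    refine le_antisymm hMK ?_
    obtain ⟨p, hp, hp0, κ, hκ, hκM⟩ := exists_irrational_param hR hMK hT hm hmid hgv
      fun a ha => spTau_conj_mem hMK hg (hT v hv a ha)
    refine spGL_le_of_rat_centres hR ?_ fun z hz =>
      rat_mem_spCentres hR hMK hT hmid hp hp0 hκ hκM hz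
    rw [hcard]
    calc 4 = 2 ^ 2 := rfl
      _ ≤ 2 ^ r := Nat.pow_le_pow_right (by norm_num) hr.two_le
      _ ≤ _ := Nat.pow_le_pow_left (Finite.one_lt_card (α := F₀)) r
  push Not at hirr
  left
  refine le_antisymm (le_inf (fun g hg => ?_) hMK) hM
  have hsc : ∀ v ∈ R, ∃ κ : F, κ ≠ 0 ∧
      κ • ((g : Matrix (Fin m ⊕ Fin m) (Fin m ⊕ Fin m) F) *ᵥ v) ∈ R := fun v hv => by
    obtain ⟨κ, h1, h2⟩ := hirr g hg v hv
    exact ⟨κ, h2, h1⟩
  set e : Fin m ⊕ Fin m → (Fin m ⊕ Fin m → F) :=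
    fun j => (P : Matrix (Fin m ⊕ Fin m) (Fin m ⊕ Fin m) F) *ᵥ Pi.single j 1 with he
  choose κ hκ0 hκR using fun j => hsc (e j) (hbasis j)
  set G : (Fin m ⊕ Fin m → F) →ₗ[F] (Fin m ⊕ Fin m → F) :=
    Matrix.toLin' (g : Matrix (Fin m ⊕ Fin m) (Fin m ⊕ Fin m) F)
  have hG : ∀ v, G v = (g : Matrix (Fin m ⊕ Fin m) (Fin m ⊕ Fin m) F) *ᵥ v := fun v =>
    Matrix.toLin'_apply _ v
  have hratio : ∀ i j, κ i / κ j ∈ F₀ := by
    intro i j
    rcases eq_or_ne i j with rfl | hij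
    · rw [div_self (hκ0 i)]; exact one_mem _
    obtain ⟨t, ht0, htR⟩ := hsc (e i + e j) (hR.add (hbasis i) (hbasis j))
    rw [← hG, map_add, smul_add, hG, hG] at htR
    have hndep : ∀ i j, i ≠ j → (g : Matrix (Fin m ⊕ Fin m) (Fin m ⊕ Fin m) F) *ᵥ e j ∉
        F ∙ (κ i • ((g : Matrix (Fin m ⊕ Fin m) (Fin m ⊕ Fin m) F) *ᵥ e i)) := by
      intro i j hij h
      obtain ⟨c, hc⟩ := Submodule.mem_span_singleton.1 h
      rw [smul_smul, ← Matrix.mulVec_smul] at hc
      have h1 := mulVec_injective (ι := Fin m ⊕ Fin m) g hc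
      rw [he, ← Matrix.mulVec_smul] at h1
      have := congrFun (mulVec_injective (ι := Fin m ⊕ Fin m) P h1) j
      simp [Ne.symm hij] at this
    have key : ∀ i j, i ≠ j → t • ((g : Matrix (Fin m ⊕ Fin m) (Fin m ⊕ Fin m) F) *ᵥ e i) +
        t • ((g : Matrix (Fin m ⊕ Fin m) (Fin m ⊕ Fin m) F) *ᵥ e j) ∈ R → t / κ j ∈ F₀ := by
      intro i j hij htR
      have hi0 : κ i • ((g : Matrix (Fin m ⊕ Fin m) (Fin m ⊕ Fin m) F) *ᵥ e i) ≠ 0 := by
        refine smul_ne_zero (hκ0 i) fun h0 => ?_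
        exact hndep j i (Ne.symm hij) (by rw [h0]; exact zero_mem _)
      obtain ⟨z, hz, hzp, hzf⟩ := hR.exists_perp_not_orth (hκR i)
        (f := κ j • ((g : Matrix (Fin m ⊕ Fin m) (Fin m ⊕ Fin m) F) *ᵥ e j))
        (fun h => hndep i j hij (by
          simpa [hκ0 j] using Submodule.smul_mem _ (κ j)⁻¹ h)) hi0
      have h1 := hR.form htR hz
      have h2 := hR.form (hκR j) hz
      have hne : ζ * sympBil m F (κ j • ((g : Matrix (Fin m ⊕ Fin m) (Fin m ⊕ Fin m) F) *ᵥ e j)) z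
          ≠ 0 := mul_ne_zero hζ hzf
      convert div_mem h1 h2 using 1
      have hz' : sympBil m F ((g : Matrix (Fin m ⊕ Fin m) (Fin m ⊕ Fin m) F) *ᵥ e i) z = 0 := by
        rw [map_smul, spB_swap] at hzp
        simp only [smul_eq_mul] at hzp
        rw [spB_swap]
        have h3 : κ i * sympBil m F z ((g : Matrix (Fin m ⊕ Fin m) (Fin m ⊕ Fin m) F) *ᵥ e i) = 0 :=
          by simpa [spB_swap z] using hzp
        rw [(mul_eq_zero.1 h3).resolve_left (hκ0 i), neg_zero]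
      simp only [map_smul, LinearMap.smul_apply, smul_eq_mul] at hne
      simp only [map_add, map_smul, LinearMap.add_apply, LinearMap.smul_apply, smul_eq_mul, hz',
        mul_zero, zero_add]
      have hκj := hκ0 j
      have hH := right_ne_zero_of_mul (right_ne_zero_of_mul hne)
      rw [← mul_assoc, ← mul_assoc, mul_div_mul_right _ _ hH, mul_div_mul_left _ _ hζ]
    have h1 := key i j hij htR
    have h2 := key j i hij.symm (by rwa [add_comm] at htR)
    have := div_mem h1 h2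
    convert this using 1
    field_simp
  obtain ⟨j₀⟩ : Nonempty (Fin m ⊕ Fin m) := ⟨Sum.inl ⟨0, by omega⟩⟩
  refine mem_subfieldSubgroup_of_ratio (a := (κ j₀)⁻¹) (inv_ne_zero (hκ0 j₀)) fun i j => ?_
  have h3 : ((P⁻¹ * g * P : GL (Fin m ⊕ Fin m) F) : Matrix (Fin m ⊕ Fin m) (Fin m ⊕ Fin m) F) i j =
      (((P⁻¹ : GL (Fin m ⊕ Fin m) F) : Matrix (Fin m ⊕ Fin m) (Fin m ⊕ Fin m) F) *ᵥ ((g : Matrix (Fin m ⊕ Fin m) (Fin m ⊕ Fin m) F) *ᵥ e j)) i := by
    rw [he, ← mulVec_conj_col]; simp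
  rw [h3, inv_inv]
  convert mul_mem (hratio j₀ j) (hκR j i) using 1
  rw [Matrix.mulVec_smul, Pi.smul_apply, smul_eq_mul]
  field_simp [hκ0 j]

/-- Subfield subgroups are maximal in the symplectic group of dimension at least six. -/
theorem spGL_subfield_maximal [Fintype F] (hm : 3 ≤ m ∨ 2 ≤ m ∧ (2 : F) = 0) {F₀ : Subfield F}
    {r : ℕ} (hr : r.Prime) (hcard : Fintype.card F = Nat.card F₀ ^ r) {P : GL (Fin m ⊕ Fin m) F}
    {ζ : F} (hζ : ζ ≠ 0) (hP : IsFormRationalStructure (Cfsg.sympForm m F) F₀ ζ P) :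
    IsMaximalIn (Cfsg.spGL m F) (subfieldSubgroup F₀ P ⊓ Cfsg.spGL m F) :=
  spGL_subfield_maximal_of_two_le (hm.elim (fun h => by omega) And.left) hr hcard hζ hP

end Cfsg.Agent.GeoLow
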