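import Cfsg.Agent.GeoClasses.SympTotDecomp

/-!
The stabiliser of two complementary totally singular halves is maximal in the symplectic group
of dimension at least six (odd fields).
-/

set_option autoImplicit false

namespace Cfsg.Agent.GeoLow

open Matrix Cfsg.Geo Cfsg.Agent.Forms Cfsg.Agent.ClassicalMax Cfsg.Agent.GeoClasses Module
open scoped MatrixGroups Matrix

variable {F : Type*} [Field F] {m : ℕ}

local notation "V" => (Fin m ⊕ Fin m → F)
local notation "β" => sympBil m F
local notation "μ" g => ((g : GL (Fin m ⊕ Fin m) F) : Matrix (Fin m ⊕ Fin m) (Fin m ⊕ Fin m) F)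

section

variable {A B : Submodule F (Fin m ⊕ Fin m → F)} {M : Subgroup (GL (Fin m ⊕ Fin m) F)}

/-- A short root element moving one vector of the second half, orthogonal to a vector of the
first half which it fixes, yields a long root element. -/
lemma long_of_fixed (h2 : (2 : F) ≠ 0) (hc : IsCompl A B)
    (hA : ∀ x ∈ A, ∀ y ∈ A, β x y = 0)
    (hMK : M ≤ Cfsg.spGL m F)
    (hK : ∀ u ∈ A, ∀ w ∈ B, β u w = 0 → spShort u w ∈ M)
    {p q : V} (hpq : β p q = 0) (hh : spShort p q ∈ M)
    {u : V} (huA : u ∈ A) (hu0 : u ≠ 0) (hup : β u p = 0) (huq : β u q = 0)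
    {w₁ : V} (hw₁ : w₁ ∈ B) (huw : β u w₁ = 0) (hw₁B : (μ (spShort p q)) *ᵥ w₁ ∉ B) :
    ∃ u ∈ A, u ≠ 0 ∧ ∃ c : F, c ≠ 0 ∧ spTau u c ∈ M := by
  set h := spShort p q with hhdef
  have hfu : (μ h) *ᵥ u = u := by
    rw [hhdef, spShort_apply hpq, hup, huq]
    simp
  obtain ⟨a, ha, b, hb, hab⟩ :=
    Submodule.mem_sup.1 (show (μ h) *ᵥ w₁ ∈ A ⊔ B by rw [hc.sup_eq_top]; trivial)
  have ha0 : a ≠ 0 := fun h0 => hw₁B (by rw [← hab, h0, zero_add]; exact hb)
  have hua : β u a = 0 := hA u huA a ha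
  have hub : β u b = 0 := by
    have := mem_spGL_iff.1 (spShort_mem_spGL p q) u w₁
    rw [← hhdef, hfu, ← hab, map_add, hua, huw, zero_add] at this
    exact this
  set N := spShort u (a + b) * (spShort u b)⁻¹ with hN
  have hNM : N ∈ M := by
    refine mul_mem ?_ (inv_mem (hK u huA b hb hub))
    rw [hab, ← hfu, conj_spShort (spShort_mem_spGL p q)]
    exact mul_mem (mul_mem hh (hK u huA w₁ hw₁ huw)) (inv_mem hh)
  have hNapp : ∀ x, (μ N) *ᵥ x =
      x + (β x u • a + β x a • u) + (β a b * β x u) • u := by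
    intro x
    obtain ⟨y, rfl⟩ : ∃ y, x = (μ (spShort u b)) *ᵥ y := ⟨_, (mulVec_inv_cancel _ x).symm⟩
    rw [hN, Units.val_mul, ← Matrix.mulVec_mulVec]
    have hcancel : (μ (spShort u b)⁻¹) *ᵥ ((μ (spShort u b)) *ᵥ y) = y := by
      rw [Matrix.mulVec_mulVec, ← Units.val_mul, inv_mul_cancel, Units.val_one, Matrix.one_mulVec]
    rw [hcancel, spShort_apply (by rw [map_add, hua, hub, add_zero]), spShort_apply hub]
    simp only [map_add, map_smul, LinearMap.add_apply, LinearMap.smul_apply, smul_eq_mul, hua,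
      hub, spB_swap u a, spB_swap u b, spB_swap a b, sympBil_isAlt.self_eq_zero]
    module
  by_cases hau : a ∈ (F ∙ u)
  · obtain ⟨l, rfl⟩ := Submodule.mem_span_singleton.1 hau
    have hl : l ≠ 0 := fun h0 => ha0 (by simp [h0])
    have hub0 : β (l • u) b = 0 := by simp [hub]
    refine ⟨u, huA, hu0, 2 * l, mul_ne_zero h2 hl, ?_⟩
    convert hNM using 1
    refine gl_ext_mulVec fun x => ?_
    rw [hNapp, spTau_apply, hub0]
    simp only [map_smul, smul_eq_mul]
    module
  · obtain ⟨w₂, hw₂, hu2, ha2⟩ := exists_pair_vector hc.symm hA huA ha hau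
    set w₂' := (β a w₂)⁻¹ • w₂ with hw₂'
    have huw2 : β u w₂' = 0 := by rw [map_smul, spB_swap w₂ u, hu2]; simp
    have haw2 : β a w₂' = 1 := by
      rw [map_smul, smul_eq_mul, inv_mul_cancel₀]
      rw [spB_swap w₂ a, neg_ne_zero]; exact ha2
    set d := spShort u w₂' with hd
    have hdM : d ∈ M := hK u huA _ (B.smul_mem _ hw₂) huw2
    refine ⟨u, huA, hu0, 2, h2, ?_⟩
    convert mul_mem (inv_mem hNM) (mul_mem (mul_mem hdM hNM) (inv_mem hdM)) using 1
    rw [eq_inv_mul_iff_mul_eq]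
    refine gl_ext_mulVec fun x => ?_
    obtain ⟨y, rfl⟩ : ∃ y, x = (μ d) *ᵥ y := ⟨_, (mulVec_inv_cancel _ x).symm⟩
    have hcancel : (μ d⁻¹) *ᵥ ((μ d) *ᵥ y) = y := by
      rw [Matrix.mulVec_mulVec, ← Units.val_mul, inv_mul_cancel, Units.val_one, Matrix.one_mulVec]
    simp only [Units.val_mul, ← Matrix.mulVec_mulVec, hcancel]
    rw [hd, spShort_apply huw2, spShort_apply huw2]
    simp only [hNapp, spTau_apply]
    simp only [map_add, map_smul, LinearMap.add_apply, LinearMap.smul_apply, smul_eq_mul, hua,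
      huw2, haw2, spB_swap u a, spB_swap u w₂', spB_swap a w₂', sympBil_isAlt.self_eq_zero]
    module

/-- A short root element moving the second half yields a long root element in one of the
halves. -/
lemma long_or (hm : 3 ≤ m) (h2 : (2 : F) ≠ 0) (hc : IsCompl A B)
    (hA : ∀ x ∈ A, ∀ y ∈ A, β x y = 0) (hB : ∀ x ∈ B, ∀ y ∈ B, β x y = 0)
    (hdA : finrank F A = m) (hdB : finrank F B = m)
    (hMK : M ≤ Cfsg.spGL m F)
    (hK : ∀ u ∈ A, ∀ w ∈ B, β u w = 0 → spShort u w ∈ M)
    (hK' : ∀ w ∈ B, ∀ u ∈ A, β w u = 0 → spShort w u ∈ M)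
    {p q : V} (hpq : β p q = 0) (hh : spShort p q ∈ M)
    (hmove : ∃ w ∈ B, (μ (spShort p q)) *ᵥ w ∉ B) :
    ∃ v, v ≠ 0 ∧ (v ∈ A ∨ v ∈ B) ∧ ∃ c : F, c ≠ 0 ∧ spTau v c ∈ M := by
  obtain ⟨w₁, hw₁, hw₁B⟩ := hmove
  have hle : ∀ φ : V →ₗ[F] F, ∀ S : Submodule F V,
      finrank F S ≤ finrank F ↥(S ⊓ LinearMap.ker φ) + 1 := by
    intro φ S
    have h1 := Submodule.finrank_sup_add_finrank_inf_eq S (LinearMap.ker φ)
    have h2 := Submodule.finrank_le (S ⊔ LinearMap.ker φ)
    have h3 := LinearMap.finrank_range_add_finrank_ker φ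
    have h4 : finrank F (LinearMap.range φ) ≤ 1 :=
      (Submodule.finrank_le _).trans (by rw [Module.finrank_self])
    omega
  set T := A ⊓ (LinearMap.ker ((β).flip p) ⊓ LinearMap.ker ((β).flip q)) with hT
  by_cases hT2 : 2 ≤ finrank F T
  · obtain ⟨u, hu, hu0⟩ : ∃ u ∈ T ⊓ LinearMap.ker ((β).flip w₁), u ≠ 0 := by
      by_contra hcon
      push Not at hcon
      have h0 : T ⊓ LinearMap.ker ((β).flip w₁) = ⊥ := (Submodule.eq_bot_iff _).2 hcon
      have := hle ((β).flip w₁) T
      rw [h0, finrank_bot] at this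
      omega
    obtain ⟨v, hv, hv0, r⟩ := long_of_fixed h2 hc hA hMK hK hpq hh hu.1.1 hu0 hu.1.2.1 hu.1.2.2
      hw₁ hu.2 hw₁B
    exact ⟨v, hv0, Or.inl hv, r⟩
  obtain ⟨w, hw, hw0⟩ : ∃ w ∈ B ⊓ (LinearMap.ker ((β).flip p) ⊓ LinearMap.ker ((β).flip q)),
      w ≠ 0 := by
    by_contra hcon
    push Not at hcon
    have h0 := (Submodule.eq_bot_iff _).2 hcon
    have h1 := hle ((β).flip p) B
    have h5 := hle ((β).flip q) (B ⊓ LinearMap.ker ((β).flip p))
    rw [inf_assoc, h0, finrank_bot] at h5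
    omega
  obtain ⟨x, hx, hxT⟩ : ∃ x ∈ A ⊓ LinearMap.ker ((β).flip w), x ∉ T :=
    SetLike.not_le_iff_exists.1 fun h => by
      have := hle ((β).flip w) A
      have := Submodule.finrank_mono h
      omega
  have hxw : β w x = 0 := by
    rw [spB_swap x w, show β x w = 0 from hx.2, neg_zero]
  have hxA : (μ (spShort p q)) *ᵥ x ∉ A := by
    intro hmem
    rw [spShort_apply hpq, add_assoc] at hmem
    have hcd : β x p • q + β x q • p ∈ A := by simpa using A.sub_mem hmem hx.1
    apply hT2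
    by_cases hp : β x p = 0
    · have hq : β x q ≠ 0 := fun hq => hxT ⟨hx.1, hp, hq⟩
      have hsub : A ⊓ LinearMap.ker ((β).flip q) ≤ T := fun u hu => by
        refine ⟨hu.1, ?_, hu.2⟩
        show β u p = 0
        have := hA u hu.1 _ hcd
        rw [map_add, map_smul, map_smul, smul_eq_mul, smul_eq_mul, hp, zero_mul, zero_add] at this
        exact (mul_eq_zero.1 this).resolve_left hq
      have := hle ((β).flip q) A
      have := Submodule.finrank_mono hsub
      omega
    · have hsub : A ⊓ LinearMap.ker ((β).flip p) ≤ T := fun u hu => by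
        refine ⟨hu.1, hu.2, ?_⟩
        show β u q = 0
        have := hA u hu.1 _ hcd
        rw [map_add, map_smul, map_smul, smul_eq_mul, smul_eq_mul, show β u p = 0 from hu.2,
          mul_zero, add_zero] at this
        exact (mul_eq_zero.1 this).resolve_left hp
      have := hle ((β).flip p) A
      have := Submodule.finrank_mono hsub
      omega
  obtain ⟨v, hv, hv0, r⟩ := long_of_fixed h2 hc.symm hB hMK hK' hpq hh hw.1 hw0 hw.2.1 hw.2.2
    hx.1 hxw hxA
  exact ⟨v, hv0, Or.inr hv, r⟩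

/-- A long root element in the first half gives the whole symplectic group. -/
lemma spGL_le_of_long [Fintype F] (hm : 2 ≤ m) (hodd : Odd (Fintype.card F)) (hc : IsCompl A B)
    (hA : ∀ x ∈ A, ∀ y ∈ A, β x y = 0) (hB : ∀ x ∈ B, ∀ y ∈ B, β x y = 0)
    (hdA : finrank F A = m) (hdB : finrank F B = m)
    (hK : ∀ u ∈ A, ∀ w ∈ B, β u w = 0 → spShort u w ∈ M)
    {s : GL (Fin m ⊕ Fin m) F} (hsK : s ∈ Cfsg.spGL m F) (hsM : s ∈ M)
    (hsA : ∀ x ∈ A, (μ s) *ᵥ x ∈ B) {u₀ : V} (hu₀ : u₀ ∈ A) (hu₀0 : u₀ ≠ 0) {c₀ : F}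
    (hc₀ : c₀ ≠ 0) (hτ : spTau u₀ c₀ ∈ M) : Cfsg.spGL m F ≤ M := by
  have h2 : (2 : F) ≠ 0 := two_ne_zero_iff_odd_card.2 hodd
  -- the shorts act transitively on the non-zero vectors of the half
  have step : ∀ a ∈ A, ∀ a' ∈ A, a ≠ 0 → a' ∉ (F ∙ a) → spTau a c₀ ∈ M → spTau a' c₀ ∈ M := by
    intro a ha a' ha' hvne hne hmem
    obtain ⟨w, hw, hwu, hwa⟩ := exists_pair_vector hc.symm hA (A.sub_mem ha' ha) ha (p := a' - a)
      (fun h => by
        obtain ⟨c, hc'⟩ := Submodule.mem_span_singleton.1 h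
        rcases eq_or_ne c 0 with rfl | hc0
        · rw [zero_smul] at hc'
          exact hvne hc'.symm
        · refine hne (Submodule.mem_span_singleton.2 ⟨(1 + c) / c, ?_⟩)
          linear_combination (norm := (match_scalars <;> field_simp <;> ring)) (-c⁻¹ : F) • hc')
    set w' := (β a w)⁻¹ • w with hw'
    have h1 : β (a' - a) w' = 0 := by rw [map_smul, spB_swap w (a' - a), hwu]; simp
    have h3 : β a w' = 1 := by
      rw [map_smul, smul_eq_mul, inv_mul_cancel₀]
      rw [spB_swap w a, neg_ne_zero]; exact hwa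
    have hd := hK _ (A.sub_mem ha' ha) w' (B.smul_mem _ hw) h1
    have himg : (μ (spShort (a' - a) w')) *ᵥ a = a' := by
      rw [spShort_apply h1, hA a ha _ (A.sub_mem ha' ha), h3, zero_smul, add_zero, one_smul,
        add_sub_cancel]
    rw [← himg, conj_spTau (spShort_mem_spGL _ _)]
    exact mul_mem (mul_mem hd hmem) (inv_mem hd)
  have hall : ∀ a ∈ A, a ≠ 0 → spTau a c₀ ∈ M := by
    intro a ha ha0
    by_cases h : a ∈ (F ∙ u₀)
    · obtain ⟨v, hv, hvu⟩ : ∃ v ∈ A, v ∉ (F ∙ u₀) := SetLike.not_le_iff_exists.1 fun hle => by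
        have := (Submodule.finrank_mono hle).trans (finrank_span_le_card ({u₀} : Set _))
        simp at this
        omega
      refine step v hv a ha (fun h0 => hvu (by rw [h0]; exact zero_mem _)) (fun hav => hvu ?_)
        (step u₀ hu₀ v hv hu₀0 hvu hτ)
      obtain ⟨c, hc'⟩ := Submodule.mem_span_singleton.1 hav
      have hc0 : c ≠ 0 := fun h0 => ha0 (by simp [← hc', h0])
      rw [show v = c⁻¹ • a by rw [← hc', inv_smul_smul₀ hc0]]
      exact Submodule.smul_mem _ _ h
    · exact step u₀ hu₀ a ha hu₀0 h hτ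
  have hAS : (A : Set (Fin m ⊕ Fin m → F)) ⊆ spCentres M := by
    intro a ha c
    rcases eq_or_ne a 0 with rfl | ha0
    · convert one_mem M using 1
      exact gl_ext_mulVec fun x => by simp [spTau_apply]
    obtain ⟨x, y, hxy⟩ := FiniteField.exists_root_sum_quadratic (f := (Polynomial.X ^ 2 : Polynomial F))
      (g := Polynomial.X ^ 2 - Polynomial.C (c / c₀)) (Polynomial.degree_X_pow 2)
      (Polynomial.degree_X_pow_sub_C (by norm_num) _) (Nat.odd_iff.1 hodd)
    have key : ∀ l : F, spTau a (c₀ * l ^ 2) ∈ M := fun l => by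
      rcases eq_or_ne l 0 with rfl | hl
      · convert one_mem M using 1
        exact gl_ext_mulVec fun x => by simp [spTau_apply]
      · convert hall (l • a) (A.smul_mem l ha) (smul_ne_zero hl ha0) using 1
        refine gl_ext_mulVec fun x => ?_
        simp only [spTau_apply, map_smul, smul_eq_mul, smul_smul]
        congr 2
        ring
    convert mul_mem (key x) (key y) using 1
    refine gl_ext_mulVec fun z => ?_
    simp only [Units.val_mul, ← Matrix.mulVec_mulVec, spTau_apply, map_add, map_smul,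
      LinearMap.add_apply, LinearMap.smul_apply, smul_eq_mul, sympBil_isAlt.self_eq_zero]
    have hsum : c = c₀ * x ^ 2 + c₀ * y ^ 2 := by
      simp only [Polynomial.eval_pow, Polynomial.eval_X, Polynomial.eval_sub,
        Polynomial.eval_C] at hxy
      field_simp at hxy
      linear_combination -hxy
    rw [hsum]
    module
  have hBS : (B : Set (Fin m ⊕ Fin m → F)) ⊆ spCentres M := by
    intro b hb
    have hsurj : ∃ a ∈ A, (μ s) *ᵥ a = b := by
      have hmap : A.map (Matrix.toLin' (μ s)) = B := Submodule.eq_of_le_of_finrank_eq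
        (by rintro _ ⟨x, hx, rfl⟩; simpa using hsA x hx)
        (by rw [← (Submodule.equivMapOfInjective _ (fun u v huv =>
          mulVec_injective s (by simpa using huv)) A).finrank_eq, hdA, hdB])
      obtain ⟨a, ha, rfl⟩ := hmap.ge hb
      exact ⟨a, ha, by simp⟩
    obtain ⟨a, ha, rfl⟩ := hsurj
    exact mulVec_mem_spCentres (hAS ha) hsM hsK
  have hAo : LinearMap.BilinForm.orthogonal β A ≤ A := by
    intro v hv
    obtain ⟨a, ha, b, hb, rfl⟩ :=
      Submodule.mem_sup.1 (show v ∈ A ⊔ B by rw [hc.sup_eq_top]; trivial)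
    by_cases hb0 : b = 0
    · simpa [hb0] using ha
    obtain ⟨u, hu, hub⟩ := exists_pair_ne hc hB hb hb0
    have h0 : β u (a + b) = 0 := hv u hu
    rw [map_add, hA u hu a ha, zero_add] at h0
    exact absurd h0 hub
  haveI : Finite (Submodule F (Fin m ⊕ Fin m → F)) :=
    Finite.of_injective (fun S : Submodule F (Fin m ⊕ Fin m → F) => (S : Set (Fin m ⊕ Fin m → F)))
      SetLike.coe_injective
  obtain ⟨S, ⟨hAS', hSX⟩, hmax⟩ := (Set.toFinite
    {S : Submodule F (Fin m ⊕ Fin m → F) | A ≤ S ∧ (S : Set (Fin m ⊕ Fin m → F)) ⊆ spCentres M}).exists_maximal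
      ⟨A, le_rfl, hAS⟩
  have hBle : B ≤ S := fun b hb => by
    by_contra hbS
    have := hmax (y := S ⊔ (F ∙ b)) ⟨hAS'.trans le_sup_left,
      sup_span_subset_spCentres hSX (le_trans (fun v hv => hAo fun u hu => hv u (hAS' hu)) hAS')
        (hBS hb) hbS⟩ le_sup_left
    exact hbS (this (Submodule.mem_sup_right (Submodule.mem_span_singleton_self b)))
  exact spGL_le_of_spTau_mem fun v c =>
    hSX ((sup_le hAS' hBle) (show v ∈ A ⊔ B by rw [hc.sup_eq_top]; trivial)) c

/-- The stabiliser of two complementary totally singular halves is maximal. -/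
theorem spGL_totDecomp_maximal [Fintype F] (hm : 3 ≤ m) (hodd : Odd (Fintype.card F))
    {D : Fin 2 → Submodule F (Fin m ⊕ Fin m → F)} (hD : IsMDecomposition m D)
    (hts : ∀ i, IsTotallySingularFor (Cfsg.sympForm m F) (D i)) :
    IsMaximalIn (Cfsg.spGL m F) (decompositionStabilizer D ⊓ Cfsg.spGL m F) := by
  have h2 : (2 : F) ≠ 0 := two_ne_zero_iff_odd_card.2 hodd
  refine ⟨lt_of_le_not_ge inf_le_right fun hle =>
    spGL_not_le_decompositionStabilizer hD (by omega) (hle.trans inf_le_left), fun M hM hMK => ?_⟩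
  by_cases hMW : M ≤ decompositionStabilizer D
  · exact Or.inl (le_antisymm (le_inf hMW hMK) hM)
  refine Or.inr (le_antisymm hMK ?_)
  set A := D 0 with hAdef
  set B := D 1 with hBdef
  have hc : IsCompl A B := mdecomp_isCompl hD
  have hdA : finrank F A = m := hD.finrank_eq 0
  have hdB : finrank F B = m := hD.finrank_eq 1
  have hA : ∀ x ∈ A, ∀ y ∈ A, β x y = 0 := fun x hx y hy => by
    rw [sympBil_apply]; exact hts 0 x hx y hy
  have hB : ∀ x ∈ B, ∀ y ∈ B, β x y = 0 := fun x hx y hy => by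
    rw [sympBil_apply]; exact hts 1 x hx y hy
  have hK : ∀ u ∈ A, ∀ w ∈ B, β u w = 0 → spShort u w ∈ M := by
    intro u hu w hw huw
    refine hM ⟨mem_decompositionStabilizer_two hD 1 fun i => ?_, spShort_mem_spGL _ _⟩
    revert i
    rw [Fin.forall_fin_two]
    refine ⟨fun x hx => ?_, fun x hx => ?_⟩ <;> rw [spShort_apply huw] <;>
      simp only [Equiv.Perm.one_apply]
    · rw [hA x hx u hu, zero_smul, add_zero]
      exact A.add_mem hx (A.smul_mem _ hu)
    · rw [hB x hx w hw, zero_smul, add_zero]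
      exact B.add_mem hx (B.smul_mem _ hw)
  have hK' : ∀ w ∈ B, ∀ u ∈ A, β w u = 0 → spShort w u ∈ M := fun w hw u hu h => by
    have h' : β u w = 0 := by rw [spB_swap w u, h, neg_zero]
    rw [spShort_comm h']; exact hK u hu w hw h'
  obtain ⟨s, hsK, hsA, hsB⟩ := exists_swap_halves hc hA hB hdA hdB
  have hsM : s ∈ M := hM ⟨mem_decompositionStabilizer_two hD (Equiv.swap 0 1) (by
    rw [Fin.forall_fin_two]
    simpa using ⟨hsA, hsB⟩), hsK⟩
  -- some conjugate of a short root element moves one of the halves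
  obtain ⟨p, q, hpq, hh, hmove⟩ : ∃ p q, β p q = 0 ∧ spShort p q ∈ M ∧
      ((∃ x ∈ B, (μ (spShort p q)) *ᵥ x ∉ B) ∨ ∃ x ∈ A, (μ (spShort p q)) *ᵥ x ∉ A) := by
    by_contra hcon
    push Not at hcon
    refine hMW fun g hg => ?_
    set G : (Fin m ⊕ Fin m → F) →ₗ[F] (Fin m ⊕ Fin m → F) :=
      Matrix.toLin' (μ g) with hG
    have hGv : ∀ v, G v = (μ g) *ᵥ v := fun v => Matrix.toLin'_apply _ v
    have hGinj : Function.Injective G := fun u v h => mulVec_injective g (by simpa [hGv] using h)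
    have hGsurj : Function.Surjective G := LinearMap.surjective_of_injective hGinj
    have key : ∀ S : Submodule F (Fin m ⊕ Fin m → F), S = A ∨ S = B →
        Submodule.comap G S = A ∨ Submodule.comap G S = B := by
      intro S hS
      set W := Submodule.comap G S with hWdef
      have hdS : finrank F S = m := by rcases hS with rfl | rfl <;> assumption
      have hdW : finrank F W = m := by
        rw [(Submodule.equivMapOfInjective G hGinj W).finrank_eq, hWdef,
          Submodule.map_comap_eq_of_surjective hGsurj, hdS]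
      have hinv : ∀ u ∈ A, ∀ w ∈ B, β u w = 0 → ∀ x ∈ W, (μ (spShort u w)) *ᵥ x ∈ W := by
        intro u hu w hw huw x hx
        have hpq : β ((μ g) *ᵥ u) ((μ g) *ᵥ w) = 0 := (mem_spGL_iff.1 (hMK hg) u w).trans huw
        have hmem : spShort ((μ g) *ᵥ u) ((μ g) *ᵥ w) ∈ M := by
          rw [conj_spShort (hMK hg)]
          exact mul_mem (mul_mem hg (hK u hu w hw huw)) (inv_mem hg)
        obtain ⟨hcB, hcA⟩ := hcon _ _ hpq hmem
        have hgx : (μ g) *ᵥ x ∈ S := by rw [← hGv]; exact hx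
        show G _ ∈ S
        rw [hGv, show (μ g) *ᵥ ((μ (spShort u w)) *ᵥ x) =
            (μ (spShort ((μ g) *ᵥ u) ((μ g) *ᵥ w))) *ᵥ ((μ g) *ᵥ x) by
          rw [conj_spShort (hMK hg), Matrix.mulVec_mulVec, Matrix.mulVec_mulVec, ← Units.val_mul,
            ← Units.val_mul]
          group]
        rcases hS with rfl | rfl
        · exact hcA _ hgx
        · exact hcB _ hgx
      have h1 := short_invariant_dichotomy (by omega) hc hA hB hdB hinv
      have h1' := short_invariant_dichotomy (by omega) hc.symm hB hA hdA (fun w hw u hu h x hx => by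
        have h' : β u w = 0 := by rw [spB_swap w u, h, neg_zero]
        rw [spShort_comm h']; exact hinv u hu w hw h' x hx)
      rcases h1 with h | h
      · exact Or.inr (Submodule.eq_of_le_of_finrank_eq h (hdB.trans hdW.symm)).symm
      · exact Or.inl (Submodule.eq_of_le_of_finrank_eq h (hdW.trans hdA.symm))
    have hne : Submodule.comap G A ≠ Submodule.comap G B := fun h => by
      have hAB : A = B := Submodule.comap_injective_of_surjective hGsurj h
      have := Submodule.finrank_add_eq_of_isCompl hc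
      rw [hAB] at hc
      have h0 := hc.inf_eq_bot
      rw [inf_idem] at h0
      rw [h0, finrank_bot] at hdB
      omega
    rcases key A (Or.inl rfl) with ha | ha <;> rcases key B (Or.inr rfl) with hb | hb
    · exact (hne (ha.trans hb.symm)).elim
    · refine mem_decompositionStabilizer_two hD 1 ?_
      rw [Fin.forall_fin_two]
      exact ⟨fun x hx => by simpa [← hGv] using (ha.ge hx),
        fun x hx => by simpa [← hGv] using (hb.ge hx)⟩
    · refine mem_decompositionStabilizer_two hD (Equiv.swap 0 1) ?_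
      rw [Fin.forall_fin_two]
      exact ⟨fun x hx => by simpa [← hGv] using (hb.ge hx),
        fun x hx => by simpa [← hGv] using (ha.ge hx)⟩
    · exact (hne (ha.trans hb.symm)).elim
  obtain ⟨u₀, hu₀, hu₀0, c₀, hc₀, hτ⟩ : ∃ u ∈ A, u ≠ 0 ∧ ∃ c : F, c ≠ 0 ∧ spTau u c ∈ M := by
    obtain ⟨v, hv0, hv, c, hc', hτ⟩ : ∃ v, v ≠ 0 ∧ (v ∈ A ∨ v ∈ B) ∧
        ∃ c : F, c ≠ 0 ∧ spTau v c ∈ M := by
      rcases hmove with h | h
      · exact long_or hm h2 hc hA hB hdA hdB hMK hK hK' hpq hh h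
      · obtain ⟨v, hv0, hv, r⟩ := long_or hm h2 hc.symm hB hA hdB hdA hMK hK' hK hpq hh h
        exact ⟨v, hv0, hv.symm, r⟩
    rcases hv with hv | hv
    · exact ⟨v, hv, hv0, c, hc', hτ⟩
    · refine ⟨(μ s) *ᵥ v, hsB v hv, fun h0 => hv0 (mulVec_injective s (by simpa using h0)), c, hc', ?_⟩
      rw [GeoClasses.conj_spTau hsK]
      exact mul_mem (mul_mem hsM hτ) (inv_mem hsM)
  exact spGL_le_of_long (by omega) hodd hc hA hB hdA hdB hK hsK hsM hsA hu₀ hu₀0 hc₀ hτ

end

end Cfsg.Agent.GeoLow
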