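import Cfsg.Agent.GeoLow.SympTotDecompThree
import Cfsg.Agent.MaxSub.Overfield.Basic

/-!
The stabiliser of two complementary totally singular planes is maximal in the four-dimensional
symplectic group over a field of odd order at least five.
-/

set_option autoImplicit false

namespace Cfsg.Agent.GeoLow

open Matrix Cfsg.Geo Cfsg.Agent.Forms Cfsg.Agent.ClassicalMax Cfsg.Agent.GeoClasses Module
open scoped MatrixGroups Matrix

variable {F : Type*} [Field F]

local notation "V" => (Fin 2 ⊕ Fin 2 → F)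
local notation "β" => sympBil 2 F
local notation "μ" g => ((g : GL (Fin 2 ⊕ Fin 2) F) : Matrix (Fin 2 ⊕ Fin 2) (Fin 2 ⊕ Fin 2) F)

namespace TotTwo

/-- A non-zero vector of a plane orthogonal to a given vector. -/
lemma exists_perp_in {S : Submodule F V} (hS : finrank F S = 2) (z : V) :
    ∃ w ∈ S, w ≠ 0 ∧ β z w = 0 := by
  obtain ⟨w, hw, hw0⟩ := Submodule.exists_mem_ne_zero_of_ne_bot
    (LinearMap.ker_ne_bot_of_finrank_lt (f := (β z) ∘ₗ S.subtype) (by
      rw [Module.finrank_self, hS]; norm_num))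
  exact ⟨w, w.2, fun h => hw0 (Subtype.ext h), hw⟩

/-- Two independent vectors of a plane span it. -/
lemma plane_eq {S : Submodule F V} (hS : finrank F S = 2) {x y : V} (hx : x ∈ S) (hy : y ∈ S)
    (h : ∀ r t : F, r • x + t • y = 0 → r = 0 ∧ t = 0) : Submodule.span F {x, y} = S := by
  refine Submodule.eq_of_le_of_finrank_le (Submodule.span_le.2 ?_) ?_
  · rintro z (rfl | rfl)
    · exact hx
    · exact hy
  · have h1 := finrank_span_eq_card (LinearIndependent.pair_iff.2 h)
    rw [Fintype.card_fin, Matrix.range_cons, Matrix.range_cons, Matrix.range_empty,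
      Set.union_empty, Set.singleton_union] at h1
    omega

lemma finrank_pair_le (x y : V) : finrank F (Submodule.span F ({x, y} : Set V)) ≤ 2 := by
  classical
  have h0 := finrank_span_finset_le_card (R := F) ({x, y} : Finset V)
  have := Finset.card_le_two (a := x) (b := y)
  unfold Set.finrank at h0
  rw [Finset.coe_pair] at h0
  omega

lemma two_le_of_indep {L : Submodule F V} {x y : V} (hx : x ∈ L) (hy : y ∈ L)
    (h : ∀ r t : F, r • x + t • y = 0 → r = 0 ∧ t = 0) : 2 ≤ finrank F L := by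
  have h1 := finrank_span_eq_card (LinearIndependent.pair_iff.2 h)
  rw [Fintype.card_fin, Matrix.range_cons, Matrix.range_cons, Matrix.range_empty,
    Set.union_empty, Set.singleton_union] at h1
  have h2 : Submodule.span F {x, y} ≤ L := Submodule.span_le.2 (by
    rintro z (rfl | rfl)
    · exact hx
    · exact hy)
  have := Submodule.finrank_mono h2
  omega

lemma indep_of_not_mem {x y : V} (hx : x ≠ 0) (hy : y ∉ (F ∙ x)) (r t : F)
    (h : r • x + t • y = 0) : r = 0 ∧ t = 0 := by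
  rcases eq_or_ne t 0 with rfl | ht
  · rw [zero_smul, add_zero] at h
    exact ⟨(smul_eq_zero.1 h).resolve_right hx, rfl⟩
  · refine absurd (Submodule.mem_span_singleton.2 ⟨-(r / t), ?_⟩) hy
    have h' := congrArg (fun v => t⁻¹ • v) h
    simp only [smul_add, smul_smul, inv_mul_cancel₀ ht, one_smul, smul_zero] at h'
    rw [div_eq_inv_mul]
    linear_combination (norm := module) -h'

section

variable {A B : Submodule F (Fin 2 ⊕ Fin 2 → F)} (hc : IsCompl A B)
include hc

lemma decomp (x : V) : ∃ a ∈ A, ∃ b ∈ B, a + b = x :=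
  Submodule.mem_sup.1 (show x ∈ A ⊔ B by rw [hc.sup_eq_top]; trivial)

lemma unique {a a' b b' : V} (ha : a ∈ A) (ha' : a' ∈ A) (hb : b ∈ B) (hb' : b' ∈ B)
    (h : a + b = a' + b') : a = a' ∧ b = b' := by
  have h1 : a - a' = b' - b := by rw [sub_eq_sub_iff_add_eq_add, h, add_comm]
  have h2 : a - a' ∈ A ⊓ B := ⟨A.sub_mem ha ha', h1 ▸ B.sub_mem hb' hb⟩
  rw [hc.inf_eq_bot, Submodule.mem_bot, sub_eq_zero] at h2
  exact ⟨h2, add_left_cancel (h2 ▸ h)⟩

variable (hA : ∀ x ∈ A, ∀ y ∈ A, sympBil 2 F x y = 0) (hB : ∀ x ∈ B, ∀ y ∈ B, sympBil 2 F x y = 0)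
include hA hB

omit hB in
/-- A vector of the first half orthogonal to the second vanishes. -/
lemma eq_zero_of_perp {a : V} (ha : a ∈ A)
    (h : ∀ b ∈ B, β a b = 0) : a = 0 := by
  refine sympBil_nondegenerate.1 a fun x => ?_
  obtain ⟨u, hu, w, hw, rfl⟩ := decomp hc x
  rw [map_add, hA a ha u hu, h w hw, add_zero]

omit hB in
/-- The orthogonal line in the second half of a vector of the first. -/
lemma line_of_perp (hdB : finrank F B = 2) {a w x : V} (ha : a ∈ A) (ha0 : a ≠ 0) (hw : w ∈ B)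
    (hw0 : w ≠ 0) (haw : β a w = 0) (hx : x ∈ B) (hax : β a x = 0) : x ∈ (F ∙ w) := by
  by_contra hxw
  refine ha0 (eq_zero_of_perp hc hA ha fun b hb => ?_)
  rw [← plane_eq hdB hw hx (indep_of_not_mem hw0 hxw), Submodule.mem_span_pair] at hb
  obtain ⟨r, t, rfl⟩ := hb
  simp [haw, hax]

/-- An isotropic plane all whose vectors have orthogonal components. -/
lemma half_or_mixed (h2 : (2 : F) ≠ 0) (hdA : finrank F A = 2) (hdB : finrank F B = 2)
    {W : Submodule F V} (hdW : finrank F W = 2) (hW : ∀ x ∈ W, ∀ y ∈ W, β x y = 0)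
    (h : ∀ a ∈ A, ∀ b ∈ B, a + b ∈ W → β a b = 0) :
    W = A ∨ W = B ∨ ∃ a ∈ A, ∃ d ∈ B, a ≠ 0 ∧ d ≠ 0 ∧ a ∈ W ∧ d ∈ W := by
  have hpol : ∀ a ∈ A, ∀ b ∈ B, a + b ∈ W → ∀ c ∈ A, ∀ d ∈ B, c + d ∈ W →
      β a d = 0 ∧ β c b = 0 := by
    intro a ha b hb hab c hc' d hd hcd
    have e1 := h _ (A.add_mem ha hc') _ (B.add_mem hb hd) (by
      rw [add_add_add_comm]; exact W.add_mem hab hcd)
    have e2 := hW _ hab _ hcd
    simp only [map_add, LinearMap.add_apply, h a ha b hb hab, h c hc' d hd hcd, hA a ha c hc',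
      hB b hb d hd, spB_swap c b] at e1 e2
    have e3 : β c b = 0 := mul_left_cancel₀ h2 (by linear_combination e1 - e2)
    exact ⟨by linear_combination e2 + e3, e3⟩
  by_cases hb : ∀ a ∈ A, ∀ b ∈ B, a + b ∈ W → b = 0
  · refine Or.inl (Submodule.eq_of_le_of_finrank_eq (fun x hx => ?_) (hdW.trans hdA.symm))
    obtain ⟨a, ha, b, hb', rfl⟩ := decomp hc x
    simpa [hb a ha b hb' hx] using ha
  by_cases ha : ∀ a ∈ A, ∀ b ∈ B, a + b ∈ W → a = 0
  · refine Or.inr (Or.inl (Submodule.eq_of_le_of_finrank_eq (fun x hx => ?_) (hdW.trans hdB.symm)))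
    obtain ⟨a, ha', b, hb', rfl⟩ := decomp hc x
    simpa [ha a ha' b hb' hx] using hb'
  push Not at ha hb
  obtain ⟨a, haA, b₁, hb₁, hab, ha0⟩ := ha
  obtain ⟨c₁, hc₁, d, hdB', hcd, hd0⟩ := hb
  have had : β a d = 0 := (hpol a haA b₁ hb₁ hab c₁ hc₁ d hdB' hcd).1
  have hle : W ≤ Submodule.span F {a, d} := fun x hx => by
    obtain ⟨c, hc', e, he, rfl⟩ := decomp hc x
    have e1 := (hpol a haA b₁ hb₁ hab c hc' e he hx).1
    have e2 := (hpol c hc' e he hx c₁ hc₁ d hdB' hcd).1
    obtain ⟨t, rfl⟩ := Submodule.mem_span_singleton.1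
      (line_of_perp hc hA hdB haA ha0 hdB' hd0 had he e1)
    obtain ⟨r, rfl⟩ := Submodule.mem_span_singleton.1 (line_of_perp hc.symm hB hdA hdB' hd0 haA
      ha0 (by rw [spB_swap a d, had, neg_zero]) hc' (by rw [spB_swap c d, e2, neg_zero]))
    exact Submodule.mem_span_pair.2 ⟨r, t, rfl⟩
  have heq := Submodule.eq_of_le_of_finrank_le hle ((finrank_pair_le a d).trans hdW.ge)
  exact Or.inr (Or.inr ⟨a, haA, d, hdB', ha0, hd0, heq.symm.le (Submodule.subset_span (by simp)),
    heq.symm.le (Submodule.subset_span (by simp))⟩)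

omit hc in
/-- Scaling a hyperbolic pair of the two halves. -/
lemma exists_scale {c d : V} (hcA : c ∈ A) (hd : d ∈ B) (hcd : β c d = 1) {s : F} (hs : s ≠ 0) :
    ∃ k ∈ Cfsg.spGL 2 F, (∀ x ∈ A, (μ k) *ᵥ x ∈ A) ∧ (∀ x ∈ B, (μ k) *ᵥ x ∈ B) ∧
      ∀ x, (μ k) *ᵥ x = x + ((s - 1) * β x d) • c + ((s⁻¹ - 1) * β c x) • d := by
  let f : V →ₗ[F] V := LinearMap.id + (s - 1) • ((β).flip d).smulRight c +
    (s⁻¹ - 1) • (β c).smulRight d
  have hf : ∀ x, f x = x + ((s - 1) * β x d) • c + ((s⁻¹ - 1) * β c x) • d := fun x => by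
    simp [f, smul_smul]
  obtain ⟨k, -, hk, hke⟩ := MaxSub.Overfield.exists_gl (M := Cfsg.spGL 2 F) (Jo := 0)
    (fun g hg _ => hg) f (fun x y => by
      simp only [hf, map_add, map_smul, LinearMap.add_apply, LinearMap.smul_apply, smul_eq_mul,
        sympBil_isAlt.self_eq_zero, hcd, spB_swap c d, spB_swap d y, spB_swap c x]
      field_simp
      ring) (fun x => by simp)
  refine ⟨k, hk, fun x hx => ?_, fun x hx => ?_, fun x => (hke x).trans (hf x)⟩
  · rw [hke, hf, hA c hcA x hx]
    simpa using A.add_mem hx (A.smul_mem _ hcA)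
  · rw [hke, hf, hB x hx d hd]
    simpa using B.add_mem hx (B.smul_mem _ hd)

end

/-- A vector orthogonal to an isotropic pair lies in its span. -/
lemma mem_pair_of_perp {p q z : V} (hpq : β p q = 0)
    (hind : ∀ r t : F, r • p + t • q = 0 → r = 0 ∧ t = 0) (hp : β p z = 0) (hq : β q z = 0) :
    z ∈ Submodule.span F {p, q} := by
  set L := Submodule.span F ({p, q} : Set V)
  have hL : 2 ≤ finrank F L := by
    have h1 := finrank_span_eq_card (LinearIndependent.pair_iff.2 hind)
    rw [Fintype.card_fin, Matrix.range_cons, Matrix.range_cons, Matrix.range_empty,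
      Set.union_empty, Set.singleton_union] at h1
    exact h1.ge
  have hperp : ∀ w, β p w = 0 → β q w = 0 → w ∈ LinearMap.BilinForm.orthogonal β L := by
    intro w h1 h2 x hx
    obtain ⟨r, t, rfl⟩ := Submodule.mem_span_pair.1 hx
    show β (r • p + t • q) w = 0
    simp [h1, h2]
  have hle : L ≤ LinearMap.BilinForm.orthogonal β L := Submodule.span_le.2 (by
    rintro w (rfl | rfl)
    · exact hperp _ (sympBil_isAlt.self_eq_zero _) (by rw [spB_swap w q, hpq, neg_zero])
    · exact hperp _ hpq (sympBil_isAlt.self_eq_zero _))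
  have hfin : finrank F ↥(LinearMap.BilinForm.orthogonal β L) = finrank F V - finrank F L :=
    LinearMap.BilinForm.finrank_orthogonal sympBil_nondegenerate _
  have hV : finrank F V = 4 := by simp
  have := Submodule.eq_of_le_of_finrank_le hle (by omega)
  rw [this]
  exact hperp z hp hq

/-- Two short root elements with a common vector give a long one. -/
lemma long_of_short {M : Subgroup (GL (Fin 2 ⊕ Fin 2) F)} {p q q' : V} (hq : β p q = 0)
    (hq' : β p q' = 0) (h : spShort p q ∈ M) (h' : spShort p q' ∈ M) :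
    spTau p (2 * β q' q) ∈ M := by
  have hfix : (μ (spShort p q)) *ᵥ p = p := by
    rw [spShort_apply hq, sympBil_isAlt.self_eq_zero, hq, zero_smul, zero_smul, add_zero, add_zero]
  have himg : (μ (spShort p q)) *ᵥ q' = q' + β q' q • p := by
    rw [spShort_apply hq, spB_swap p q', hq', neg_zero, zero_smul, add_zero]
  have e : spShort p q * spShort p q' * (spShort p q)⁻¹ =
      spTau p (2 * β q' q) * spShort p q' := by
    rw [← conj_spShort (spShort_mem_spGL p q), hfix, himg]
    refine gl_ext_mulVec fun x => ?_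
    rw [Units.val_mul, ← Matrix.mulVec_mulVec, spTau_apply,
      spShort_apply (by simp [hq', sympBil_isAlt.self_eq_zero]), spShort_apply hq']
    simp only [map_add, map_smul, LinearMap.add_apply, LinearMap.smul_apply, smul_eq_mul,
      sympBil_isAlt.self_eq_zero, spB_swap p q', hq']
    module
  rw [show spTau p (2 * β q' q) = spShort p q * spShort p q' * (spShort p q)⁻¹ *
    (spShort p q')⁻¹ by rw [e, mul_inv_cancel_right]]
  exact mul_mem (mul_mem (mul_mem h h') (inv_mem h)) (inv_mem h')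

end TotTwo

open TotTwo in
set_option maxHeartbeats 1000000 in
/-- The stabiliser of two complementary totally singular planes is maximal for `q ≥ 5` odd. -/
theorem spGL_totDecomp_maximal_two [Fintype F] (hodd : Odd (Fintype.card F))
    (h5 : 5 ≤ Fintype.card F) {D : Fin 2 → Submodule F V} (hD : IsMDecomposition 2 D)
    (hts : ∀ i, IsTotallySingularFor (Cfsg.sympForm 2 F) (D i)) :
    IsMaximalIn (Cfsg.spGL 2 F) (decompositionStabilizer D ⊓ Cfsg.spGL 2 F) := by
  classical
  have h2 : (2 : F) ≠ 0 := two_ne_zero_iff_odd_card.2 hodd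
  refine ⟨lt_of_le_not_ge inf_le_right fun hle =>
    spGL_not_le_decompositionStabilizer hD (by omega) (hle.trans inf_le_left), fun M hM hMK => ?_⟩
  by_cases hMW : M ≤ decompositionStabilizer D
  · exact Or.inl (le_antisymm (le_inf hMW hMK) hM)
  refine Or.inr (le_antisymm hMK ?_)
  set A := D 0 with hAdef
  set B := D 1 with hBdef
  have hc : IsCompl A B := mdecomp_isCompl hD
  have hdA : finrank F A = 2 := hD.finrank_eq 0
  have hdB : finrank F B = 2 := hD.finrank_eq 1
  have hA : ∀ x ∈ A, ∀ y ∈ A, β x y = 0 := fun x hx y hy => by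
    rw [sympBil_apply]; exact hts 0 x hx y hy
  have hB : ∀ x ∈ B, ∀ y ∈ B, β x y = 0 := fun x hx y hy => by
    rw [sympBil_apply]; exact hts 1 x hx y hy
  have hstab : ∀ k ∈ Cfsg.spGL 2 F, (∀ x ∈ A, (μ k) *ᵥ x ∈ A) → (∀ x ∈ B, (μ k) *ᵥ x ∈ B) →
      k ∈ M := fun k hk hkA hkB => hM ⟨mem_decompositionStabilizer_two hD 1 (by
    rw [Fin.forall_fin_two]
    exact ⟨hkA, hkB⟩), hk⟩
  have hK : ∀ u ∈ A, ∀ w ∈ B, β u w = 0 → spShort u w ∈ M := by
    intro u hu w hw huw
    refine hstab _ (spShort_mem_spGL _ _) (fun x hx => ?_) fun x hx => ?_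
    · rw [spShort_apply huw, hA x hx u hu, zero_smul, add_zero]
      exact A.add_mem hx (A.smul_mem _ hu)
    · rw [spShort_apply huw, hB x hx w hw, zero_smul, add_zero]
      exact B.add_mem hx (B.smul_mem _ hw)
  obtain ⟨s, hsK, hsA, hsB⟩ := exists_swap_halves hc hA hB hdA hdB
  have hsM : s ∈ M := hM ⟨mem_decompositionStabilizer_two hD (Equiv.swap 0 1) (by
    rw [Fin.forall_fin_two]
    simpa using ⟨hsA, hsB⟩), hsK⟩
  -- a conjugate short root element whose plane avoids one of the halves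
  obtain ⟨p, q, hpq, hind, hh, hmiss⟩ : ∃ p q, β p q = 0 ∧
      (∀ r t : F, r • p + t • q = 0 → r = 0 ∧ t = 0) ∧ spShort p q ∈ M ∧
      ((∀ x ∈ Submodule.span F {p, q}, x ∈ B → x = 0) ∨
        ∀ x ∈ Submodule.span F {p, q}, x ∈ A → x = 0) := by
    by_contra hcon
    push Not at hcon
    refine hMW fun g hg => ?_
    have hgs := hMK hg
    set G : V →ₗ[F] V := Matrix.toLin' (μ g) with hG
    have hGv : ∀ v, G v = (μ g) *ᵥ v := fun v => Matrix.toLin'_apply _ v
    have hGinj : Function.Injective G := fun u v h => mulVec_injective g (by simpa [hGv] using h)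
    have hGb : ∀ u v, β (G u) (G v) = β u v := fun u v => by
      rw [hGv, hGv]; exact mem_spGL_iff.1 hgs u v
    have hfA : finrank F (A.map G) = 2 :=
      (Submodule.equivMapOfInjective G hGinj A).finrank_eq.symm.trans hdA
    have hfB : finrank F (B.map G) = 2 :=
      (Submodule.equivMapOfInjective G hGinj B).finrank_eq.symm.trans hdB
    -- the planes of the conjugates meet both halves
    have hmeet : ∀ u ∈ A, ∀ w ∈ B, u ≠ 0 → w ≠ 0 → β u w = 0 →
        ∃ a' d' : V, a' ∈ A ∧ d' ∈ B ∧ a' ≠ 0 ∧ d' ≠ 0 ∧ β a' d' = 0 ∧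
          a' ∈ Submodule.span F {G u, G w} ∧ d' ∈ Submodule.span F {G u, G w} := by
      intro u hu w hw hu0 hw0 huw
      have hp : β (G u) (G w) = 0 := (hGb u w).trans huw
      have hi : ∀ r t : F, r • G u + t • G w = 0 → r = 0 ∧ t = 0 := fun r t h => by
        have h' : r • u + t • w = 0 + 0 := hGinj (by simpa using h)
        obtain ⟨e1, e2⟩ := unique hc (A.smul_mem r hu) (zero_mem A) (B.smul_mem t hw) (zero_mem B) h'
        exact ⟨(smul_eq_zero.1 e1).resolve_right hu0, (smul_eq_zero.1 e2).resolve_right hw0⟩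
      obtain ⟨⟨d', hd'L, hd'B, hd'0⟩, a', ha'L, ha'A, ha'0⟩ := hcon _ _ hp hi (by
        rw [hGv, hGv, conj_spShort hgs]
        exact mul_mem (mul_mem hg (hK u hu w hw huw)) (inv_mem hg))
      refine ⟨a', d', ha'A, hd'B, ha'0, hd'0, ?_, ha'L, hd'L⟩
      obtain ⟨r, t, rfl⟩ := Submodule.mem_span_pair.1 ha'L
      obtain ⟨r', t', rfl⟩ := Submodule.mem_span_pair.1 hd'L
      simp [hp, spB_swap (G u) (G w), sympBil_isAlt.self_eq_zero]
    have horth : ∀ S : Submodule F V, (S = A ∨ S = B) → ∀ a ∈ A, ∀ b ∈ B, a + b ∈ S.map G →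
        β a b = 0 := by
      intro S hS a ha b hb hab
      obtain ⟨x, hx, hxe⟩ := hab
      rcases eq_or_ne x 0 with rfl | hx0
      · rw [map_zero] at hxe
        obtain ⟨e1, e2⟩ := unique hc ha (zero_mem A) hb (zero_mem B) (by rw [← hxe, add_zero])
        simp [e1]
      obtain ⟨u, hu, w, hw, hu0, hw0, huw, hxs⟩ : ∃ u ∈ A, ∃ w ∈ B, u ≠ 0 ∧ w ≠ 0 ∧ β u w = 0 ∧
          (x = u ∨ x = w) := by
        rcases hS with rfl | rfl
        · obtain ⟨w, hw, hw0, hxw⟩ := exists_perp_in hdB x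
          exact ⟨x, hx, w, hw, hx0, hw0, hxw, Or.inl rfl⟩
        · obtain ⟨u, hu, hu0, hxu⟩ := exists_perp_in hdA x
          exact ⟨u, hu, x, hx, hu0, hx0, by rw [spB_swap x u, hxu, neg_zero], Or.inr rfl⟩
      obtain ⟨a', d', ha', hd', ha'0, hd'0, h0, ha'L, hd'L⟩ := hmeet u hu w hw hu0 hw0 huw
      have hL : Submodule.span F {a', d'} = Submodule.span F {G u, G w} := by
        refine plane_eq (le_antisymm (finrank_pair_le _ _) ?_) ha'L hd'L
          fun r t h => ?_
        · refine two_le_of_indep ha'L hd'L fun r t h => ?_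
          obtain ⟨e1, e2⟩ := unique hc (A.smul_mem r ha') (zero_mem A) (B.smul_mem t hd') (zero_mem B)
            (by rw [h, add_zero])
          exact ⟨(smul_eq_zero.1 e1).resolve_right ha'0, (smul_eq_zero.1 e2).resolve_right hd'0⟩
        · obtain ⟨e1, e2⟩ := unique hc (A.smul_mem r ha') (zero_mem A) (B.smul_mem t hd') (zero_mem B)
            (by rw [h, add_zero])
          exact ⟨(smul_eq_zero.1 e1).resolve_right ha'0, (smul_eq_zero.1 e2).resolve_right hd'0⟩
      have hmem : a + b ∈ Submodule.span F {a', d'} := by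
        rw [hL, ← hxe]
        rcases hxs with rfl | rfl <;> exact Submodule.subset_span (by simp)
      obtain ⟨r, t, hrt⟩ := Submodule.mem_span_pair.1 hmem
      obtain ⟨e1, e2⟩ := unique hc ha (A.smul_mem r ha') hb (B.smul_mem t hd') hrt.symm
      rw [e1, e2]
      simp [h0]
    have hiso : ∀ S : Submodule F V, (S = A ∨ S = B) → ∀ x ∈ S.map G, ∀ y ∈ S.map G, β x y = 0 := by
      rintro S hS _ ⟨x, hx, rfl⟩ _ ⟨y, hy, rfl⟩
      rw [hGb]
      rcases hS with rfl | rfl
      · exact hA x hx y hy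
      · exact hB x hx y hy
    have ha'0' : ∀ {X : Submodule F V}, A.map G = X → B.map G = X → False := fun {X} e1 e2 => by
      obtain ⟨x, hx, hx0⟩ := Submodule.exists_mem_ne_zero_of_ne_bot (p := A) fun h => by
        rw [h, finrank_bot] at hdA; omega
      obtain ⟨y, hy, hyx⟩ : G x ∈ B.map G := by rw [e2, ← e1]; exact ⟨x, hx, rfl⟩
      obtain rfl := hGinj hyx
      have : y ∈ A ⊓ B := ⟨hx, hy⟩
      rw [hc.inf_eq_bot, Submodule.mem_bot] at this
      exact hx0 this
    have hdisj : ∀ z, z ∈ A.map G → z ∈ B.map G → z = 0 := by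
      rintro _ ⟨x, hx, rfl⟩ ⟨y, hy, hxy⟩
      obtain rfl := hGinj hxy
      have : y ∈ A ⊓ B := ⟨hx, hy⟩
      rw [hc.inf_eq_bot, Submodule.mem_bot] at this
      simp [this]
    have h1 := half_or_mixed hc hA hB h2 hdA hdB hfA (hiso A (Or.inl rfl)) (horth A (Or.inl rfl))
    have h1' := half_or_mixed hc hA hB h2 hdA hdB hfB (hiso B (Or.inr rfl)) (horth B (Or.inr rfl))
    rcases h1 with ha | ha | ⟨a, haA, d, hdB', ha0, hd0, haW, hdW⟩
    · rcases h1' with hb | hb | ⟨a', ha'A, d', hd'B, ha'0, -, ha'W, -⟩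
      · exact (ha'0' ha hb).elim
      · refine mem_decompositionStabilizer_two hD 1 ?_
        rw [Fin.forall_fin_two]
        exact ⟨fun x hx => ha.le ⟨x, hx, hGv x⟩, fun x hx => hb.le ⟨x, hx, hGv x⟩⟩
      · exact absurd (hdisj a' (ha.ge ha'A) ha'W) ha'0
    · rcases h1' with hb | hb | ⟨a', ha'A, d', hd'B, ha'0, hd'0, ha'W, hd'W⟩
      · refine mem_decompositionStabilizer_two hD (Equiv.swap 0 1) ?_
        rw [Fin.forall_fin_two]
        exact ⟨fun x hx => ha.le ⟨x, hx, hGv x⟩, fun x hx => hb.le ⟨x, hx, hGv x⟩⟩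
      · exact (ha'0' ha hb).elim
      · exact absurd (hdisj d' (ha.ge hd'B) hd'W) hd'0
    · rcases h1' with hb | hb | ⟨a', ha'A, d', hd'B, ha'0, hd'0, ha'W, hd'W⟩
      · exact absurd (hdisj a haW (hb.ge haA)) ha0
      · exact absurd (hdisj d hdW (hb.ge hdB')) hd0
      exfalso
      obtain ⟨u, hu, hue⟩ := (A.map G).add_mem haW hdW
      have hu0 : u ≠ 0 := fun h => by
        rw [h, map_zero] at hue
        exact ha0 (unique hc haA (zero_mem A) hdB' (zero_mem B) (by rw [← hue, add_zero])).1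
      obtain ⟨w, hw, hw0, huw⟩ := exists_perp_in hdB u
      have hspan : Submodule.span F {a', d'} = B.map G :=
        plane_eq hfB ha'W hd'W fun r t h => by
          obtain ⟨e1, e2⟩ := unique hc (A.smul_mem r ha'A) (zero_mem A) (B.smul_mem t hd'B)
            (zero_mem B) (by rw [h, add_zero])
          exact ⟨(smul_eq_zero.1 e1).resolve_right ha'0, (smul_eq_zero.1 e2).resolve_right hd'0⟩
      obtain ⟨c₁, c₂, hGw⟩ := Submodule.mem_span_pair.1 (hspan.ge ⟨w, hw, rfl⟩)
      obtain ⟨a'', d'', ha'', hd'', ha''0, hd''0, -, ha''L, hd''L⟩ := hmeet u hu w hw hu0 hw0 huw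
      rw [hue, ← hGw] at ha''L hd''L
      obtain ⟨r, t, hrt⟩ := Submodule.mem_span_pair.1 ha''L
      obtain ⟨r', t', hrt'⟩ := Submodule.mem_span_pair.1 hd''L
      have hdd : d' ∉ (F ∙ d) := fun h => by
        obtain ⟨l, rfl⟩ := Submodule.mem_span_singleton.1 h
        exact hd'0 (hdisj _ ((A.map G).smul_mem l hdW) hd'W)
      have haa : a' ∉ (F ∙ a) := fun h => by
        obtain ⟨l, rfl⟩ := Submodule.mem_span_singleton.1 h
        exact ha'0 (hdisj _ ((A.map G).smul_mem l haW) ha'W)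
      obtain ⟨e1, e2⟩ := unique hc (A.add_mem (A.smul_mem r haA) (A.smul_mem (t * c₁) ha'A)) ha''
        (B.add_mem (B.smul_mem r hdB') (B.smul_mem (t * c₂) hd'B)) (zero_mem B)
        (by rw [add_zero, ← hrt]; module)
      obtain ⟨e3, e4⟩ := unique hc (A.add_mem (A.smul_mem r' haA) (A.smul_mem (t' * c₁) ha'A))
        (zero_mem A) (B.add_mem (B.smul_mem r' hdB') (B.smul_mem (t' * c₂) hd'B)) hd''
        (by rw [zero_add, ← hrt']; module)
      obtain ⟨hr, htc⟩ := indep_of_not_mem hd0 hdd _ _ e2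
      obtain ⟨hr', htc'⟩ := indep_of_not_mem ha0 haa _ _ e3
      subst hr hr'
      have ht : t ≠ 0 := fun h => ha''0 (by rw [← e1, h]; simp)
      have hc2 : c₂ = 0 := (mul_eq_zero.1 htc).resolve_left ht
      exact hd''0 (by rw [← e4, hc2]; simp)
  -- make it avoid the second half
  obtain ⟨p, q, hpq, hind, hh, hmiss⟩ : ∃ p q, β p q = 0 ∧
      (∀ r t : F, r • p + t • q = 0 → r = 0 ∧ t = 0) ∧ spShort p q ∈ M ∧
      ∀ x ∈ Submodule.span F {p, q}, x ∈ B → x = 0 := by
    rcases hmiss with h | h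
    · exact ⟨p, q, hpq, hind, hh, h⟩
    refine ⟨(μ s) *ᵥ p, (μ s) *ᵥ q, (mem_spGL_iff.1 hsK p q).trans hpq, fun r t e => ?_, ?_, ?_⟩
    · rw [← Matrix.mulVec_smul, ← Matrix.mulVec_smul, ← Matrix.mulVec_add] at e
      exact hind r t (mulVec_injective s (e.trans (Matrix.mulVec_zero _).symm))
    · rw [conj_spShort hsK]
      exact mul_mem (mul_mem hsM hh) (inv_mem hsM)
    · intro x hx hxB
      obtain ⟨r, t, rfl⟩ := Submodule.mem_span_pair.1 hx
      rw [← Matrix.mulVec_smul, ← Matrix.mulVec_smul, ← Matrix.mulVec_add] at hxB ⊢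
      obtain ⟨a, ha, b, hb, hab⟩ := decomp hc (r • p + t • q)
      rw [← hab, Matrix.mulVec_add] at hxB
      have hb0 : (μ s) *ᵥ b = 0 := (unique hc (hsB b hb) (zero_mem A) (hsA a ha) hxB
        (by rw [zero_add, add_comm])).1
      have hz := h (r • p + t • q) (Submodule.mem_span_pair.2 ⟨r, t, rfl⟩) (by
        rw [← hab, mulVec_injective s (hb0.trans (Matrix.mulVec_zero _).symm), add_zero]; exact ha)
      rw [hz, Matrix.mulVec_zero]
  obtain ⟨r₀, hr₀0, hr₀1, hr₀2⟩ : ∃ r : F, r ≠ 0 ∧ r ≠ 1 ∧ r ≠ -1 := by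
    by_contra hcon
    push Not at hcon
    have h3 : Fintype.card F ≤ ({0, 1, -1} : Finset F).card := Finset.card_le_card fun x _ => by
      by_cases hx0 : x = 0
      · simp [hx0]
      by_cases hx1 : x = 1
      · simp [hx1]
      simp [hcon x hx0 hx1]
    have := (Finset.card_insert_le (0 : F) {1, -1}).trans
      (Nat.add_le_add_right Finset.card_le_two 1)
    omega
  -- a long root element in the first half
  obtain ⟨u₀, hu₀, hu₀0, c₀, hc₀, hτ⟩ : ∃ u ∈ A, u ≠ 0 ∧ ∃ c : F, c ≠ 0 ∧ spTau u c ∈ M := by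
    by_cases hLA : ∃ x ∈ Submodule.span F {p, q}, x ∈ A ∧ x ≠ 0
    · obtain ⟨x, hxL, hxA, hx0⟩ := hLA
      obtain ⟨r, t, hrt⟩ := Submodule.mem_span_pair.1 hxL
      have hxp : β x p = 0 := by
        rw [← hrt]; simp [spB_swap p q, hpq, sympBil_isAlt.self_eq_zero]
      have hxq : β x q = 0 := by
        rw [← hrt]; simp [hpq, sympBil_isAlt.self_eq_zero]
      obtain ⟨w, hw, hw0, hxw⟩ := exists_perp_in hdB x
      refine long_of_fixed h2 hc hA hMK hK hpq hh hxA hx0 hxp hxq hw hxw fun hmem => ?_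
      rw [spShort_apply hpq, add_assoc] at hmem
      have hd : β w p • q + β w q • p ∈ B := by simpa using B.sub_mem hmem hw
      obtain ⟨e1, e2⟩ := hind (β w q) (β w p) (by
        rw [add_comm]
        exact hmiss _ (Submodule.mem_span_pair.2 ⟨β w q, β w p, add_comm _ _⟩) hd)
      exact hw0 (hmiss w (mem_pair_of_perp hpq hind (by rw [spB_swap w p, e2, neg_zero])
        (by rw [spB_swap w q, e1, neg_zero])) hw)
    push Not at hLA
    have hnotA : ∀ z ∈ A, z ≠ 0 → β p z ≠ 0 ∨ β q z ≠ 0 := fun z hz hz0 => by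
      by_contra h
      push Not at h
      exact hz0 (hLA z (mem_pair_of_perp hpq hind h.1 h.2) hz)
    have hnotB : ∀ z ∈ B, z ≠ 0 → β p z ≠ 0 ∨ β q z ≠ 0 := fun z hz hz0 => by
      by_contra h
      push Not at h
      exact hz0 (hmiss z (mem_pair_of_perp hpq hind h.1 h.2) hz)
    obtain ⟨a, ha, b, hb, hab⟩ := decomp hc p
    obtain ⟨a', ha', b', hb', hab'⟩ := decomp hc q
    have hne : ∀ {x y : V}, x ∈ A → y ∈ B → x + y ∈ Submodule.span F {p, q} → x + y ≠ 0 →
        x ≠ 0 ∧ y ≠ 0 := fun {x y} hx hy hxy h0 =>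
      ⟨fun h => h0 (by rw [h, zero_add] at hxy ⊢; exact hmiss y hxy hy),
        fun h => h0 (by rw [h, add_zero] at hxy ⊢; exact hLA x hxy hx)⟩
    have hpL : p ∈ Submodule.span F {p, q} := Submodule.subset_span (by simp)
    have hqL : q ∈ Submodule.span F {p, q} := Submodule.subset_span (by simp)
    -- both with components as needed
    have main : ∀ (p q : V), β p q = 0 → spShort p q ∈ M →
        (∀ z ∈ A, z ≠ 0 → β p z ≠ 0 ∨ β q z ≠ 0) →
        (∀ z ∈ B, z ≠ 0 → β p z ≠ 0 ∨ β q z ≠ 0) → ∀ a ∈ A, ∀ b ∈ B, a + b = p → β a b ≠ 0 →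
        ∃ u ∈ A, u ≠ 0 ∧ ∃ c : F, c ≠ 0 ∧ spTau u c ∈ M := by
      intro p q hpq hh hnA hnB a ha b hb hp hab
      obtain ⟨c, hcA, hc0, hbc⟩ := exists_perp_in hdA b
      obtain ⟨d, hdB', hd0, had⟩ := exists_perp_in hdB a
      have hcd : β c d ≠ 0 := fun h => hab (by
        have : b ∈ (F ∙ d) := line_of_perp hc hA hdB hcA hc0 hdB' hd0 h hb
          (by rw [spB_swap b c, hbc, neg_zero])
        obtain ⟨t, rfl⟩ := Submodule.mem_span_singleton.1 this
        simp [had])
      set d₁ := (β c d)⁻¹ • d with hd₁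
      obtain ⟨k, hk, hkA, hkB, hke⟩ := exists_scale hA hB hcA (B.smul_mem (β c d)⁻¹ hdB')
        (by rw [map_smul, smul_eq_mul, inv_mul_cancel₀ hcd]) hr₀0
      have hkM := hstab k hk hkA hkB
      have hpd : β p d = 0 := by
        rw [← hp, map_add, LinearMap.add_apply, had, hB b hb d hdB', add_zero]
      have hpc : β p c = 0 := by
        rw [← hp, map_add, LinearMap.add_apply, hA a ha c hcA, hbc, add_zero]
      have hkp : (μ k) *ᵥ p = p := by
        rw [hke, map_smul, hpd, spB_swap p c, hpc]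
        simp
      have hqc : β q c ≠ 0 := (hnA c hcA hc0).resolve_left (not_not.2 hpc)
      have hqd : β q d ≠ 0 := (hnB d hdB' hd0).resolve_left (not_not.2 hpd)
      have h' : spShort p ((μ k) *ᵥ q) ∈ M := by
        conv in spShort p _ => rw [← hkp]
        rw [conj_spShort hk]
        exact mul_mem (mul_mem hkM hh) (inv_mem hkM)
      have hpq' : β p ((μ k) *ᵥ q) = 0 := by
        conv_lhs => rw [← hkp]
        exact (mem_spGL_iff.1 hk p q).trans hpq
      have hτ := long_of_short hpq hpq' hh h'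
      set γ := 2 * β ((μ k) *ᵥ q) q with hγ
      have hγ0 : γ ≠ 0 := by
        have e : γ * r₀ * β c d = 2 * (β q d * β q c) * (1 - r₀ * r₀) := by
          simp only [hγ, hke, map_add, map_smul, LinearMap.add_apply, LinearMap.smul_apply,
            sympBil_isAlt.self_eq_zero, spB_swap q c, spB_swap q d, smul_eq_mul]
          field_simp
          ring
        intro h0
        rw [h0, zero_mul, zero_mul] at e
        refine mul_ne_zero (mul_ne_zero h2 (mul_ne_zero hqd hqc)) (fun h => ?_) e.symm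
        rcases mul_self_eq_one_iff.1 (sub_eq_zero.1 h).symm with h | h
        · exact hr₀1 h
        · exact hr₀2 h
      refine ⟨c, hcA, hc0, 2 * γ, mul_ne_zero h2 hγ0, ?_⟩
      have hcb : β c b = 0 := by rw [spB_swap b c, hbc, neg_zero]
      have hmove : ∀ e : F, spTau (p + e • c) γ ∈ M := fun e => by
        have h0 : β c ((e / β a b) • b) = 0 := by rw [map_smul, hcb, smul_zero]
        have := mul_mem (mul_mem (hK c hcA _ (B.smul_mem (e / β a b) hb) h0) hτ)
          (inv_mem (hK c hcA _ (B.smul_mem (e / β a b) hb) h0))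
        rw [← conj_spTau (spShort_mem_spGL _ _), spShort_apply h0, hpc, zero_smul, add_zero,
          map_smul, smul_eq_mul] at this
        convert this using 2
        rw [← hp, map_add, LinearMap.add_apply, hB b hb b hb, add_zero, div_mul_cancel₀ _ hab]
      convert mul_mem (mul_mem (hmove 1) (hmove (-1))) (inv_mem (mul_mem hτ hτ)) using 1
      rw [eq_mul_inv_iff_mul_eq]
      refine gl_ext_mulVec fun x => ?_
      simp only [Units.val_mul, ← Matrix.mulVec_mulVec, spTau_apply, map_add, map_smul,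
        LinearMap.add_apply, LinearMap.smul_apply, smul_eq_mul, hpc, spB_swap p c,
        sympBil_isAlt.self_eq_zero]
      module
    by_cases h1 : β a b = 0
    swap
    · exact main p q hpq hh hnotA hnotB a ha b hb hab h1
    by_cases h3 : β a' b' = 0
    swap
    · have hqp : β q p = 0 := by rw [spB_swap p q, hpq, neg_zero]
      exact main q p hqp (by rwa [spShort_comm hpq]) (fun z hz hz0 => (hnotA z hz hz0).symm)
        (fun z hz hz0 => (hnotB z hz hz0).symm) a' ha' b' hb' hab' h3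
    obtain ⟨ha0, hb0⟩ := hne ha hb (by rw [hab]; exact hpL) (by
      rw [hab]
      intro h
      exact one_ne_zero (hind 1 0 (by simp [h])).1)
    have hpa : β p a = 0 := by
      rw [← hab, map_add, LinearMap.add_apply, sympBil_isAlt.self_eq_zero, zero_add,
        spB_swap a b, h1, neg_zero]
    have hpb : β p b = 0 := by
      rw [← hab, map_add, LinearMap.add_apply, sympBil_isAlt.self_eq_zero, add_zero, h1]
    have hqa : β q a ≠ 0 := (hnotA a ha ha0).resolve_left (not_not.2 hpa)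
    have hqb : β q b ≠ 0 := (hnotB b hb hb0).resolve_left (not_not.2 hpb)
    have hh' : spShort p ((μ (spShort a b)) *ᵥ q) ∈ M := by
      have hfix : (μ (spShort a b)) *ᵥ p = p := by
        rw [spShort_apply h1, hpa, hpb, zero_smul, zero_smul, add_zero, add_zero]
      conv in spShort p _ => rw [← hfix]
      rw [conj_spShort (spShort_mem_spGL _ _)]
      exact mul_mem (mul_mem (hK a ha b hb h1) hh) (inv_mem (hK a ha b hb h1))
    have hτ := long_of_short hpq (by
      rw [spShort_apply h1, map_add, map_add, map_smul, map_smul, hpq, hpa, hpb]; simp) hh hh'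
    set γ := 2 * β ((μ (spShort a b)) *ᵥ q) q with hγ
    have hγ0 : γ ≠ 0 := by
      have e : γ = -(2 * 2 * (β q a * β q b)) := by
        simp only [hγ, spShort_apply h1, map_add, map_smul, LinearMap.add_apply,
          LinearMap.smul_apply, sympBil_isAlt.self_eq_zero, spB_swap q a, spB_swap q b,
          smul_eq_mul]
        ring
      rw [e]
      exact neg_ne_zero.2 (mul_ne_zero (mul_ne_zero h2 h2) (mul_ne_zero hqa hqb))
    obtain ⟨d, hd, had⟩ : ∃ d ∈ B, β a d ≠ 0 := by
      by_contra h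
      push Not at h
      exact ha0 (eq_zero_of_perp hc hA ha h)
    have hmove : ∀ e : F, e ≠ -1 → spTau (p + e • a) γ ∈ M := fun e he => by
      have he' : 1 + e ≠ 0 := fun h => he (by linear_combination h)
      obtain ⟨k, hk, hkA, hkB, hke⟩ := exists_scale hA hB ha (B.smul_mem (β a d)⁻¹ hd)
        (by rw [map_smul, smul_eq_mul, inv_mul_cancel₀ had]) he'
      have hkM := hstab k hk hkA hkB
      have := mul_mem (mul_mem hkM hτ) (inv_mem hkM)
      rw [← conj_spTau hk, hke, spB_swap p a, hpa, map_smul] at this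
      convert this using 2
      rw [← hab, map_add, LinearMap.add_apply, hB b hb d hd, add_zero, smul_eq_mul,
        inv_mul_cancel₀ had]
      simp
    refine ⟨a, ha, ha0, 2 * (r₀ * r₀) * γ,
      mul_ne_zero (mul_ne_zero h2 (mul_ne_zero hr₀0 hr₀0)) hγ0, ?_⟩
    convert mul_mem (mul_mem (hmove r₀ hr₀2) (hmove (-r₀) fun h => hr₀1 (neg_injective h)))
      (inv_mem (mul_mem hτ hτ)) using 1
    rw [eq_mul_inv_iff_mul_eq]
    refine gl_ext_mulVec fun x => ?_
    simp only [Units.val_mul, ← Matrix.mulVec_mulVec, spTau_apply, map_add, map_smul,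
      LinearMap.add_apply, LinearMap.smul_apply, smul_eq_mul, hpa, spB_swap p a,
      sympBil_isAlt.self_eq_zero]
    module
  exact spGL_le_of_long le_rfl hodd hc hA hB hdA hdB hK hsK hsM hsA hu₀ hu₀0 hc₀ hτ

end Cfsg.Agent.GeoLow
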